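import Cfsg.Agent.Helper28.CoxG
import Cfsg.Agent.Helper28.Grp
import Cfsg.Agent.Helper28.Y5T.Cert
import Cfsg.Agent.Helper28.Y5D0.Cert
import Cfsg.Agent.Helper28.Y5D1.Cert
import Cfsg.Agent.Helper28.Y5D2.Cert
import Cfsg.Agent.Helper28.Y5D3.Cert
import Cfsg.Agent.Helper28.Y5D4.Cert
import Cfsg.Agent.Helper28.Y5D5.Cert
import Cfsg.Agent.Helper28.Y5D6.Cert

/-! The order of the presented group None is at most the expected one: a tower of subgroups (generated). -/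

set_option autoImplicit false

namespace Cfsg.Agent.Helper28.Y5

theorem node (x : Cfsg.Agent.Helper28.Y5.G0.Gen) : x ∈ Cfsg.Spor.coxNodes Cfsg.Agent.Helper28.Y5.G0.edges := Cfsg.Agent.Helper28.Y5T.cert.hnode x

theorem relE1_0 : FreeGroup.lift (fun y => (PresentedGroup.of (Cfsg.Agent.Helper28.Y5.D0.inc y) : Cfsg.Agent.Helper28.Y5.G0)) ((Cfsg.Agent.Helper28.Y5.D0.a * Cfsg.Agent.Helper28.Y5.D0.b1 * Cfsg.Agent.Helper28.Y5.D0.c1 * Cfsg.Agent.Helper28.Y5.D0.a * Cfsg.Agent.Helper28.Y5.D0.b2 * Cfsg.Agent.Helper28.Y5.D0.c2 * Cfsg.Agent.Helper28.Y5.D0.a * Cfsg.Agent.Helper28.Y5.D0.b3 * Cfsg.Agent.Helper28.Y5.D0.c3) ^ 10) = 1 := by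
  rw [Cfsg.Agent.Helper28.lift_of_comp]
  have e : FreeGroup.map Cfsg.Agent.Helper28.Y5.D0.inc ((Cfsg.Agent.Helper28.Y5.D0.a * Cfsg.Agent.Helper28.Y5.D0.b1 * Cfsg.Agent.Helper28.Y5.D0.c1 * Cfsg.Agent.Helper28.Y5.D0.a * Cfsg.Agent.Helper28.Y5.D0.b2 * Cfsg.Agent.Helper28.Y5.D0.c2 * Cfsg.Agent.Helper28.Y5.D0.a * Cfsg.Agent.Helper28.Y5.D0.b3 * Cfsg.Agent.Helper28.Y5.D0.c3) ^ 10) = (Cfsg.Agent.Helper28.Y5.G0.a * Cfsg.Agent.Helper28.Y5.G0.b1 * Cfsg.Agent.Helper28.Y5.G0.c1 * Cfsg.Agent.Helper28.Y5.G0.a * Cfsg.Agent.Helper28.Y5.G0.b2 * Cfsg.Agent.Helper28.Y5.G0.c2 * Cfsg.Agent.Helper28.Y5.G0.a * Cfsg.Agent.Helper28.Y5.G0.b3 * Cfsg.Agent.Helper28.Y5.G0.c3) ^ 10 := by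
    simp only [map_pow, map_mul, map_inv, FreeGroup.map.of, Cfsg.Agent.Helper28.Y5.D0.inc]
  rw [e]
  exact PresentedGroup.one_of_mem (Or.inr (by simp [Cfsg.Agent.Helper28.Y5.G0.extra]))

theorem rel1 : ∀ r ∈ (Cfsg.Spor.coxRelators Cfsg.Agent.Helper28.Y5.D0.edges ∪ {r | r ∈ Cfsg.Agent.Helper28.Y5.D0.extra}), FreeGroup.lift (fun y => (PresentedGroup.of (Cfsg.Agent.Helper28.Y5.D0.inc y) : Cfsg.Agent.Helper28.Y5.G0)) r = 1 := by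
  intro r hr
  rcases hr with ⟨x, _, y, _, rfl⟩ | hr
  · rw [map_pow, map_mul, FreeGroup.lift_apply_of, FreeGroup.lift_apply_of]
    have e : Cfsg.Spor.coxLabel Cfsg.Agent.Helper28.Y5.D0.edges x y = Cfsg.Spor.coxLabel Cfsg.Agent.Helper28.Y5.G0.edges (Cfsg.Agent.Helper28.Y5.D0.inc x) (Cfsg.Agent.Helper28.Y5.D0.inc y) := by
      cases x <;> cases y <;> decide
    rw [e]
    exact Cfsg.Agent.Helper28.cox_pair Cfsg.Agent.Helper28.Y5.G0.edges Cfsg.Agent.Helper28.Y5.G0.extra _ _ (node _) (node _)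
  · have hr' : r ∈ Cfsg.Agent.Helper28.Y5.D0.extra := hr
    simp only [Cfsg.Agent.Helper28.Y5.D0.extra, List.mem_cons, List.not_mem_nil, or_false] at hr'
    rcases hr' with rfl
    · exact relE1_0

/-- the homomorphism from the auxiliary group -/
noncomputable def f1 : Cfsg.Spor.CoxPresented Cfsg.Agent.Helper28.Y5.D0.Gen Cfsg.Agent.Helper28.Y5.D0.edges Cfsg.Agent.Helper28.Y5.D0.extra →* Cfsg.Agent.Helper28.Y5.G0 :=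
  PresentedGroup.toGroup rel1

theorem range1 : f1.range = (Subgroup.closure ({Cfsg.Agent.Helper28.Y5.G0.a, Cfsg.Agent.Helper28.Y5.G0.b1, Cfsg.Agent.Helper28.Y5.G0.c1, Cfsg.Agent.Helper28.Y5.G0.d1, Cfsg.Agent.Helper28.Y5.G0.e1, Cfsg.Agent.Helper28.Y5.G0.b2, Cfsg.Agent.Helper28.Y5.G0.c2, Cfsg.Agent.Helper28.Y5.G0.d2, Cfsg.Agent.Helper28.Y5.G0.b3, Cfsg.Agent.Helper28.Y5.G0.c3} : Set (FreeGroup Cfsg.Agent.Helper28.Y5.G0.Gen))).map (PresentedGroup.mk (Cfsg.Spor.coxRelators Cfsg.Agent.Helper28.Y5.G0.edges ∪ {r | r ∈ Cfsg.Agent.Helper28.Y5.G0.extra})) := by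
  rw [f1, Cfsg.Agent.Helper28.toGroup_range, MonoidHom.map_closure]
  congr 1
  ext z
  constructor
  · rintro ⟨y, rfl⟩
    cases y
    · exact ⟨Cfsg.Agent.Helper28.Y5.G0.a, by simp, rfl⟩
    · exact ⟨Cfsg.Agent.Helper28.Y5.G0.b1, by simp, rfl⟩
    · exact ⟨Cfsg.Agent.Helper28.Y5.G0.c1, by simp, rfl⟩
    · exact ⟨Cfsg.Agent.Helper28.Y5.G0.d1, by simp, rfl⟩
    · exact ⟨Cfsg.Agent.Helper28.Y5.G0.e1, by simp, rfl⟩
    · exact ⟨Cfsg.Agent.Helper28.Y5.G0.b2, by simp, rfl⟩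
    · exact ⟨Cfsg.Agent.Helper28.Y5.G0.c2, by simp, rfl⟩
    · exact ⟨Cfsg.Agent.Helper28.Y5.G0.d2, by simp, rfl⟩
    · exact ⟨Cfsg.Agent.Helper28.Y5.G0.b3, by simp, rfl⟩
    · exact ⟨Cfsg.Agent.Helper28.Y5.G0.c3, by simp, rfl⟩
  · rintro ⟨s, hs, rfl⟩
    simp only [Set.mem_insert_iff, Set.mem_singleton_iff] at hs
    rcases hs with rfl | rfl | rfl | rfl | rfl | rfl | rfl | rfl | rfl | rfl
    · exact ⟨Cfsg.Agent.Helper28.Y5.D0.Gen.a, rfl⟩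
    · exact ⟨Cfsg.Agent.Helper28.Y5.D0.Gen.b1, rfl⟩
    · exact ⟨Cfsg.Agent.Helper28.Y5.D0.Gen.c1, rfl⟩
    · exact ⟨Cfsg.Agent.Helper28.Y5.D0.Gen.d1, rfl⟩
    · exact ⟨Cfsg.Agent.Helper28.Y5.D0.Gen.e1, rfl⟩
    · exact ⟨Cfsg.Agent.Helper28.Y5.D0.Gen.b2, rfl⟩
    · exact ⟨Cfsg.Agent.Helper28.Y5.D0.Gen.c2, rfl⟩
    · exact ⟨Cfsg.Agent.Helper28.Y5.D0.Gen.d2, rfl⟩
    · exact ⟨Cfsg.Agent.Helper28.Y5.D0.Gen.b3, rfl⟩
    · exact ⟨Cfsg.Agent.Helper28.Y5.D0.Gen.c3, rfl⟩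

theorem relE2_0 : FreeGroup.lift (fun y => (PresentedGroup.of (Cfsg.Agent.Helper28.Y5.D1.inc y) : Cfsg.Agent.Helper28.Y5.G0)) ((Cfsg.Agent.Helper28.Y5.D1.a * Cfsg.Agent.Helper28.Y5.D1.b1 * Cfsg.Agent.Helper28.Y5.D1.c1 * Cfsg.Agent.Helper28.Y5.D1.a * Cfsg.Agent.Helper28.Y5.D1.b2 * Cfsg.Agent.Helper28.Y5.D1.c2 * Cfsg.Agent.Helper28.Y5.D1.a * Cfsg.Agent.Helper28.Y5.D1.b3 * Cfsg.Agent.Helper28.Y5.D1.c3) ^ 10) = 1 := by
  rw [Cfsg.Agent.Helper28.lift_of_comp]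
  have e : FreeGroup.map Cfsg.Agent.Helper28.Y5.D1.inc ((Cfsg.Agent.Helper28.Y5.D1.a * Cfsg.Agent.Helper28.Y5.D1.b1 * Cfsg.Agent.Helper28.Y5.D1.c1 * Cfsg.Agent.Helper28.Y5.D1.a * Cfsg.Agent.Helper28.Y5.D1.b2 * Cfsg.Agent.Helper28.Y5.D1.c2 * Cfsg.Agent.Helper28.Y5.D1.a * Cfsg.Agent.Helper28.Y5.D1.b3 * Cfsg.Agent.Helper28.Y5.D1.c3) ^ 10) = (Cfsg.Agent.Helper28.Y5.G0.a * Cfsg.Agent.Helper28.Y5.G0.b1 * Cfsg.Agent.Helper28.Y5.G0.c1 * Cfsg.Agent.Helper28.Y5.G0.a * Cfsg.Agent.Helper28.Y5.G0.b2 * Cfsg.Agent.Helper28.Y5.G0.c2 * Cfsg.Agent.Helper28.Y5.G0.a * Cfsg.Agent.Helper28.Y5.G0.b3 * Cfsg.Agent.Helper28.Y5.G0.c3) ^ 10 := by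
    simp only [map_pow, map_mul, map_inv, FreeGroup.map.of, Cfsg.Agent.Helper28.Y5.D1.inc]
  rw [e]
  exact PresentedGroup.one_of_mem (Or.inr (by simp [Cfsg.Agent.Helper28.Y5.G0.extra]))

theorem rel2 : ∀ r ∈ (Cfsg.Spor.coxRelators Cfsg.Agent.Helper28.Y5.D1.edges ∪ {r | r ∈ Cfsg.Agent.Helper28.Y5.D1.extra}), FreeGroup.lift (fun y => (PresentedGroup.of (Cfsg.Agent.Helper28.Y5.D1.inc y) : Cfsg.Agent.Helper28.Y5.G0)) r = 1 := by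
  intro r hr
  rcases hr with ⟨x, _, y, _, rfl⟩ | hr
  · rw [map_pow, map_mul, FreeGroup.lift_apply_of, FreeGroup.lift_apply_of]
    have e : Cfsg.Spor.coxLabel Cfsg.Agent.Helper28.Y5.D1.edges x y = Cfsg.Spor.coxLabel Cfsg.Agent.Helper28.Y5.G0.edges (Cfsg.Agent.Helper28.Y5.D1.inc x) (Cfsg.Agent.Helper28.Y5.D1.inc y) := by
      cases x <;> cases y <;> decide
    rw [e]
    exact Cfsg.Agent.Helper28.cox_pair Cfsg.Agent.Helper28.Y5.G0.edges Cfsg.Agent.Helper28.Y5.G0.extra _ _ (node _) (node _)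
  · have hr' : r ∈ Cfsg.Agent.Helper28.Y5.D1.extra := hr
    simp only [Cfsg.Agent.Helper28.Y5.D1.extra, List.mem_cons, List.not_mem_nil, or_false] at hr'
    rcases hr' with rfl
    · exact relE2_0

/-- the homomorphism from the auxiliary group -/
noncomputable def f2 : Cfsg.Spor.CoxPresented Cfsg.Agent.Helper28.Y5.D1.Gen Cfsg.Agent.Helper28.Y5.D1.edges Cfsg.Agent.Helper28.Y5.D1.extra →* Cfsg.Agent.Helper28.Y5.G0 :=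
  PresentedGroup.toGroup rel2

theorem range2 : ((Subgroup.closure ({Cfsg.Agent.Helper28.Y5.D0.a, Cfsg.Agent.Helper28.Y5.D0.b1, Cfsg.Agent.Helper28.Y5.D0.c1, Cfsg.Agent.Helper28.Y5.D0.d1, Cfsg.Agent.Helper28.Y5.D0.b2, Cfsg.Agent.Helper28.Y5.D0.c2, Cfsg.Agent.Helper28.Y5.D0.d2, Cfsg.Agent.Helper28.Y5.D0.b3, Cfsg.Agent.Helper28.Y5.D0.c3} : Set (FreeGroup Cfsg.Agent.Helper28.Y5.D0.Gen))).map (PresentedGroup.mk (Cfsg.Spor.coxRelators Cfsg.Agent.Helper28.Y5.D0.edges ∪ {r | r ∈ Cfsg.Agent.Helper28.Y5.D0.extra}))).map f1 = f2.range := by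
  rw [f1, f2, Cfsg.Agent.Helper28.toGroup_range, Cfsg.Agent.Helper28.toGroup_map_closure]
  congr 1
  ext z
  constructor
  · rintro ⟨s, hs, rfl⟩
    simp only [Set.mem_insert_iff, Set.mem_singleton_iff] at hs
    rcases hs with rfl | rfl | rfl | rfl | rfl | rfl | rfl | rfl | rfl
    · exact ⟨Cfsg.Agent.Helper28.Y5.D1.Gen.a, (FreeGroup.lift_apply_of (f := (fun y => (PresentedGroup.of (Cfsg.Agent.Helper28.Y5.D0.inc y) : Cfsg.Agent.Helper28.Y5.G0))) (x := Cfsg.Agent.Helper28.Y5.D0.Gen.a)).symm⟩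
    · exact ⟨Cfsg.Agent.Helper28.Y5.D1.Gen.b1, (FreeGroup.lift_apply_of (f := (fun y => (PresentedGroup.of (Cfsg.Agent.Helper28.Y5.D0.inc y) : Cfsg.Agent.Helper28.Y5.G0))) (x := Cfsg.Agent.Helper28.Y5.D0.Gen.b1)).symm⟩
    · exact ⟨Cfsg.Agent.Helper28.Y5.D1.Gen.c1, (FreeGroup.lift_apply_of (f := (fun y => (PresentedGroup.of (Cfsg.Agent.Helper28.Y5.D0.inc y) : Cfsg.Agent.Helper28.Y5.G0))) (x := Cfsg.Agent.Helper28.Y5.D0.Gen.c1)).symm⟩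
    · exact ⟨Cfsg.Agent.Helper28.Y5.D1.Gen.d1, (FreeGroup.lift_apply_of (f := (fun y => (PresentedGroup.of (Cfsg.Agent.Helper28.Y5.D0.inc y) : Cfsg.Agent.Helper28.Y5.G0))) (x := Cfsg.Agent.Helper28.Y5.D0.Gen.d1)).symm⟩
    · exact ⟨Cfsg.Agent.Helper28.Y5.D1.Gen.b2, (FreeGroup.lift_apply_of (f := (fun y => (PresentedGroup.of (Cfsg.Agent.Helper28.Y5.D0.inc y) : Cfsg.Agent.Helper28.Y5.G0))) (x := Cfsg.Agent.Helper28.Y5.D0.Gen.b2)).symm⟩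
    · exact ⟨Cfsg.Agent.Helper28.Y5.D1.Gen.c2, (FreeGroup.lift_apply_of (f := (fun y => (PresentedGroup.of (Cfsg.Agent.Helper28.Y5.D0.inc y) : Cfsg.Agent.Helper28.Y5.G0))) (x := Cfsg.Agent.Helper28.Y5.D0.Gen.c2)).symm⟩
    · exact ⟨Cfsg.Agent.Helper28.Y5.D1.Gen.d2, (FreeGroup.lift_apply_of (f := (fun y => (PresentedGroup.of (Cfsg.Agent.Helper28.Y5.D0.inc y) : Cfsg.Agent.Helper28.Y5.G0))) (x := Cfsg.Agent.Helper28.Y5.D0.Gen.d2)).symm⟩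
    · exact ⟨Cfsg.Agent.Helper28.Y5.D1.Gen.b3, (FreeGroup.lift_apply_of (f := (fun y => (PresentedGroup.of (Cfsg.Agent.Helper28.Y5.D0.inc y) : Cfsg.Agent.Helper28.Y5.G0))) (x := Cfsg.Agent.Helper28.Y5.D0.Gen.b3)).symm⟩
    · exact ⟨Cfsg.Agent.Helper28.Y5.D1.Gen.c3, (FreeGroup.lift_apply_of (f := (fun y => (PresentedGroup.of (Cfsg.Agent.Helper28.Y5.D0.inc y) : Cfsg.Agent.Helper28.Y5.G0))) (x := Cfsg.Agent.Helper28.Y5.D0.Gen.c3)).symm⟩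
  · rintro ⟨y, rfl⟩
    cases y
    · exact ⟨Cfsg.Agent.Helper28.Y5.D0.a, by simp, FreeGroup.lift_apply_of (f := (fun y => (PresentedGroup.of (Cfsg.Agent.Helper28.Y5.D0.inc y) : Cfsg.Agent.Helper28.Y5.G0))) (x := Cfsg.Agent.Helper28.Y5.D0.Gen.a)⟩
    · exact ⟨Cfsg.Agent.Helper28.Y5.D0.b1, by simp, FreeGroup.lift_apply_of (f := (fun y => (PresentedGroup.of (Cfsg.Agent.Helper28.Y5.D0.inc y) : Cfsg.Agent.Helper28.Y5.G0))) (x := Cfsg.Agent.Helper28.Y5.D0.Gen.b1)⟩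
    · exact ⟨Cfsg.Agent.Helper28.Y5.D0.c1, by simp, FreeGroup.lift_apply_of (f := (fun y => (PresentedGroup.of (Cfsg.Agent.Helper28.Y5.D0.inc y) : Cfsg.Agent.Helper28.Y5.G0))) (x := Cfsg.Agent.Helper28.Y5.D0.Gen.c1)⟩
    · exact ⟨Cfsg.Agent.Helper28.Y5.D0.d1, by simp, FreeGroup.lift_apply_of (f := (fun y => (PresentedGroup.of (Cfsg.Agent.Helper28.Y5.D0.inc y) : Cfsg.Agent.Helper28.Y5.G0))) (x := Cfsg.Agent.Helper28.Y5.D0.Gen.d1)⟩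
    · exact ⟨Cfsg.Agent.Helper28.Y5.D0.b2, by simp, FreeGroup.lift_apply_of (f := (fun y => (PresentedGroup.of (Cfsg.Agent.Helper28.Y5.D0.inc y) : Cfsg.Agent.Helper28.Y5.G0))) (x := Cfsg.Agent.Helper28.Y5.D0.Gen.b2)⟩
    · exact ⟨Cfsg.Agent.Helper28.Y5.D0.c2, by simp, FreeGroup.lift_apply_of (f := (fun y => (PresentedGroup.of (Cfsg.Agent.Helper28.Y5.D0.inc y) : Cfsg.Agent.Helper28.Y5.G0))) (x := Cfsg.Agent.Helper28.Y5.D0.Gen.c2)⟩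
    · exact ⟨Cfsg.Agent.Helper28.Y5.D0.d2, by simp, FreeGroup.lift_apply_of (f := (fun y => (PresentedGroup.of (Cfsg.Agent.Helper28.Y5.D0.inc y) : Cfsg.Agent.Helper28.Y5.G0))) (x := Cfsg.Agent.Helper28.Y5.D0.Gen.d2)⟩
    · exact ⟨Cfsg.Agent.Helper28.Y5.D0.b3, by simp, FreeGroup.lift_apply_of (f := (fun y => (PresentedGroup.of (Cfsg.Agent.Helper28.Y5.D0.inc y) : Cfsg.Agent.Helper28.Y5.G0))) (x := Cfsg.Agent.Helper28.Y5.D0.Gen.b3)⟩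
    · exact ⟨Cfsg.Agent.Helper28.Y5.D0.c3, by simp, FreeGroup.lift_apply_of (f := (fun y => (PresentedGroup.of (Cfsg.Agent.Helper28.Y5.D0.inc y) : Cfsg.Agent.Helper28.Y5.G0))) (x := Cfsg.Agent.Helper28.Y5.D0.Gen.c3)⟩

theorem relE3_0 : FreeGroup.lift (fun y => (PresentedGroup.of (Cfsg.Agent.Helper28.Y5.D2.inc y) : Cfsg.Agent.Helper28.Y5.G0)) ((Cfsg.Agent.Helper28.Y5.D2.a * Cfsg.Agent.Helper28.Y5.D2.b1 * Cfsg.Agent.Helper28.Y5.D2.c1 * Cfsg.Agent.Helper28.Y5.D2.a * Cfsg.Agent.Helper28.Y5.D2.b2 * Cfsg.Agent.Helper28.Y5.D2.c2 * Cfsg.Agent.Helper28.Y5.D2.a * Cfsg.Agent.Helper28.Y5.D2.b3 * Cfsg.Agent.Helper28.Y5.D2.c3) ^ 10) = 1 := by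
  rw [Cfsg.Agent.Helper28.lift_of_comp]
  have e : FreeGroup.map Cfsg.Agent.Helper28.Y5.D2.inc ((Cfsg.Agent.Helper28.Y5.D2.a * Cfsg.Agent.Helper28.Y5.D2.b1 * Cfsg.Agent.Helper28.Y5.D2.c1 * Cfsg.Agent.Helper28.Y5.D2.a * Cfsg.Agent.Helper28.Y5.D2.b2 * Cfsg.Agent.Helper28.Y5.D2.c2 * Cfsg.Agent.Helper28.Y5.D2.a * Cfsg.Agent.Helper28.Y5.D2.b3 * Cfsg.Agent.Helper28.Y5.D2.c3) ^ 10) = (Cfsg.Agent.Helper28.Y5.G0.a * Cfsg.Agent.Helper28.Y5.G0.b1 * Cfsg.Agent.Helper28.Y5.G0.c1 * Cfsg.Agent.Helper28.Y5.G0.a * Cfsg.Agent.Helper28.Y5.G0.b2 * Cfsg.Agent.Helper28.Y5.G0.c2 * Cfsg.Agent.Helper28.Y5.G0.a * Cfsg.Agent.Helper28.Y5.G0.b3 * Cfsg.Agent.Helper28.Y5.G0.c3) ^ 10 := by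
    simp only [map_pow, map_mul, map_inv, FreeGroup.map.of, Cfsg.Agent.Helper28.Y5.D2.inc]
  rw [e]
  exact PresentedGroup.one_of_mem (Or.inr (by simp [Cfsg.Agent.Helper28.Y5.G0.extra]))

theorem rel3 : ∀ r ∈ (Cfsg.Spor.coxRelators Cfsg.Agent.Helper28.Y5.D2.edges ∪ {r | r ∈ Cfsg.Agent.Helper28.Y5.D2.extra}), FreeGroup.lift (fun y => (PresentedGroup.of (Cfsg.Agent.Helper28.Y5.D2.inc y) : Cfsg.Agent.Helper28.Y5.G0)) r = 1 := by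
  intro r hr
  rcases hr with ⟨x, _, y, _, rfl⟩ | hr
  · rw [map_pow, map_mul, FreeGroup.lift_apply_of, FreeGroup.lift_apply_of]
    have e : Cfsg.Spor.coxLabel Cfsg.Agent.Helper28.Y5.D2.edges x y = Cfsg.Spor.coxLabel Cfsg.Agent.Helper28.Y5.G0.edges (Cfsg.Agent.Helper28.Y5.D2.inc x) (Cfsg.Agent.Helper28.Y5.D2.inc y) := by
      cases x <;> cases y <;> decide
    rw [e]
    exact Cfsg.Agent.Helper28.cox_pair Cfsg.Agent.Helper28.Y5.G0.edges Cfsg.Agent.Helper28.Y5.G0.extra _ _ (node _) (node _)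
  · have hr' : r ∈ Cfsg.Agent.Helper28.Y5.D2.extra := hr
    simp only [Cfsg.Agent.Helper28.Y5.D2.extra, List.mem_cons, List.not_mem_nil, or_false] at hr'
    rcases hr' with rfl
    · exact relE3_0

/-- the homomorphism from the auxiliary group -/
noncomputable def f3 : Cfsg.Spor.CoxPresented Cfsg.Agent.Helper28.Y5.D2.Gen Cfsg.Agent.Helper28.Y5.D2.edges Cfsg.Agent.Helper28.Y5.D2.extra →* Cfsg.Agent.Helper28.Y5.G0 :=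
  PresentedGroup.toGroup rel3

theorem range3 : ((Subgroup.closure ({Cfsg.Agent.Helper28.Y5.D1.a, Cfsg.Agent.Helper28.Y5.D1.b1, Cfsg.Agent.Helper28.Y5.D1.c1, Cfsg.Agent.Helper28.Y5.D1.d1, Cfsg.Agent.Helper28.Y5.D1.b2, Cfsg.Agent.Helper28.Y5.D1.c2, Cfsg.Agent.Helper28.Y5.D1.b3, Cfsg.Agent.Helper28.Y5.D1.c3} : Set (FreeGroup Cfsg.Agent.Helper28.Y5.D1.Gen))).map (PresentedGroup.mk (Cfsg.Spor.coxRelators Cfsg.Agent.Helper28.Y5.D1.edges ∪ {r | r ∈ Cfsg.Agent.Helper28.Y5.D1.extra}))).map f2 = f3.range := by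
  rw [f2, f3, Cfsg.Agent.Helper28.toGroup_range, Cfsg.Agent.Helper28.toGroup_map_closure]
  congr 1
  ext z
  constructor
  · rintro ⟨s, hs, rfl⟩
    simp only [Set.mem_insert_iff, Set.mem_singleton_iff] at hs
    rcases hs with rfl | rfl | rfl | rfl | rfl | rfl | rfl | rfl
    · exact ⟨Cfsg.Agent.Helper28.Y5.D2.Gen.a, (FreeGroup.lift_apply_of (f := (fun y => (PresentedGroup.of (Cfsg.Agent.Helper28.Y5.D1.inc y) : Cfsg.Agent.Helper28.Y5.G0))) (x := Cfsg.Agent.Helper28.Y5.D1.Gen.a)).symm⟩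
    · exact ⟨Cfsg.Agent.Helper28.Y5.D2.Gen.b1, (FreeGroup.lift_apply_of (f := (fun y => (PresentedGroup.of (Cfsg.Agent.Helper28.Y5.D1.inc y) : Cfsg.Agent.Helper28.Y5.G0))) (x := Cfsg.Agent.Helper28.Y5.D1.Gen.b1)).symm⟩
    · exact ⟨Cfsg.Agent.Helper28.Y5.D2.Gen.c1, (FreeGroup.lift_apply_of (f := (fun y => (PresentedGroup.of (Cfsg.Agent.Helper28.Y5.D1.inc y) : Cfsg.Agent.Helper28.Y5.G0))) (x := Cfsg.Agent.Helper28.Y5.D1.Gen.c1)).symm⟩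
    · exact ⟨Cfsg.Agent.Helper28.Y5.D2.Gen.d1, (FreeGroup.lift_apply_of (f := (fun y => (PresentedGroup.of (Cfsg.Agent.Helper28.Y5.D1.inc y) : Cfsg.Agent.Helper28.Y5.G0))) (x := Cfsg.Agent.Helper28.Y5.D1.Gen.d1)).symm⟩
    · exact ⟨Cfsg.Agent.Helper28.Y5.D2.Gen.b2, (FreeGroup.lift_apply_of (f := (fun y => (PresentedGroup.of (Cfsg.Agent.Helper28.Y5.D1.inc y) : Cfsg.Agent.Helper28.Y5.G0))) (x := Cfsg.Agent.Helper28.Y5.D1.Gen.b2)).symm⟩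
    · exact ⟨Cfsg.Agent.Helper28.Y5.D2.Gen.c2, (FreeGroup.lift_apply_of (f := (fun y => (PresentedGroup.of (Cfsg.Agent.Helper28.Y5.D1.inc y) : Cfsg.Agent.Helper28.Y5.G0))) (x := Cfsg.Agent.Helper28.Y5.D1.Gen.c2)).symm⟩
    · exact ⟨Cfsg.Agent.Helper28.Y5.D2.Gen.b3, (FreeGroup.lift_apply_of (f := (fun y => (PresentedGroup.of (Cfsg.Agent.Helper28.Y5.D1.inc y) : Cfsg.Agent.Helper28.Y5.G0))) (x := Cfsg.Agent.Helper28.Y5.D1.Gen.b3)).symm⟩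
    · exact ⟨Cfsg.Agent.Helper28.Y5.D2.Gen.c3, (FreeGroup.lift_apply_of (f := (fun y => (PresentedGroup.of (Cfsg.Agent.Helper28.Y5.D1.inc y) : Cfsg.Agent.Helper28.Y5.G0))) (x := Cfsg.Agent.Helper28.Y5.D1.Gen.c3)).symm⟩
  · rintro ⟨y, rfl⟩
    cases y
    · exact ⟨Cfsg.Agent.Helper28.Y5.D1.a, by simp, FreeGroup.lift_apply_of (f := (fun y => (PresentedGroup.of (Cfsg.Agent.Helper28.Y5.D1.inc y) : Cfsg.Agent.Helper28.Y5.G0))) (x := Cfsg.Agent.Helper28.Y5.D1.Gen.a)⟩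
    · exact ⟨Cfsg.Agent.Helper28.Y5.D1.b1, by simp, FreeGroup.lift_apply_of (f := (fun y => (PresentedGroup.of (Cfsg.Agent.Helper28.Y5.D1.inc y) : Cfsg.Agent.Helper28.Y5.G0))) (x := Cfsg.Agent.Helper28.Y5.D1.Gen.b1)⟩
    · exact ⟨Cfsg.Agent.Helper28.Y5.D1.c1, by simp, FreeGroup.lift_apply_of (f := (fun y => (PresentedGroup.of (Cfsg.Agent.Helper28.Y5.D1.inc y) : Cfsg.Agent.Helper28.Y5.G0))) (x := Cfsg.Agent.Helper28.Y5.D1.Gen.c1)⟩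
    · exact ⟨Cfsg.Agent.Helper28.Y5.D1.d1, by simp, FreeGroup.lift_apply_of (f := (fun y => (PresentedGroup.of (Cfsg.Agent.Helper28.Y5.D1.inc y) : Cfsg.Agent.Helper28.Y5.G0))) (x := Cfsg.Agent.Helper28.Y5.D1.Gen.d1)⟩
    · exact ⟨Cfsg.Agent.Helper28.Y5.D1.b2, by simp, FreeGroup.lift_apply_of (f := (fun y => (PresentedGroup.of (Cfsg.Agent.Helper28.Y5.D1.inc y) : Cfsg.Agent.Helper28.Y5.G0))) (x := Cfsg.Agent.Helper28.Y5.D1.Gen.b2)⟩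
    · exact ⟨Cfsg.Agent.Helper28.Y5.D1.c2, by simp, FreeGroup.lift_apply_of (f := (fun y => (PresentedGroup.of (Cfsg.Agent.Helper28.Y5.D1.inc y) : Cfsg.Agent.Helper28.Y5.G0))) (x := Cfsg.Agent.Helper28.Y5.D1.Gen.c2)⟩
    · exact ⟨Cfsg.Agent.Helper28.Y5.D1.b3, by simp, FreeGroup.lift_apply_of (f := (fun y => (PresentedGroup.of (Cfsg.Agent.Helper28.Y5.D1.inc y) : Cfsg.Agent.Helper28.Y5.G0))) (x := Cfsg.Agent.Helper28.Y5.D1.Gen.b3)⟩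
    · exact ⟨Cfsg.Agent.Helper28.Y5.D1.c3, by simp, FreeGroup.lift_apply_of (f := (fun y => (PresentedGroup.of (Cfsg.Agent.Helper28.Y5.D1.inc y) : Cfsg.Agent.Helper28.Y5.G0))) (x := Cfsg.Agent.Helper28.Y5.D1.Gen.c3)⟩

theorem relE4_0 : FreeGroup.lift (fun y => (PresentedGroup.of (Cfsg.Agent.Helper28.Y5.D3.inc y) : Cfsg.Agent.Helper28.Y5.G0)) ((Cfsg.Agent.Helper28.Y5.D3.a * Cfsg.Agent.Helper28.Y5.D3.b1 * Cfsg.Agent.Helper28.Y5.D3.c1 * Cfsg.Agent.Helper28.Y5.D3.a * Cfsg.Agent.Helper28.Y5.D3.b2 * Cfsg.Agent.Helper28.Y5.D3.c2 * Cfsg.Agent.Helper28.Y5.D3.a * Cfsg.Agent.Helper28.Y5.D3.b3 * Cfsg.Agent.Helper28.Y5.D3.c3) ^ 10) = 1 := by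
  rw [Cfsg.Agent.Helper28.lift_of_comp]
  have e : FreeGroup.map Cfsg.Agent.Helper28.Y5.D3.inc ((Cfsg.Agent.Helper28.Y5.D3.a * Cfsg.Agent.Helper28.Y5.D3.b1 * Cfsg.Agent.Helper28.Y5.D3.c1 * Cfsg.Agent.Helper28.Y5.D3.a * Cfsg.Agent.Helper28.Y5.D3.b2 * Cfsg.Agent.Helper28.Y5.D3.c2 * Cfsg.Agent.Helper28.Y5.D3.a * Cfsg.Agent.Helper28.Y5.D3.b3 * Cfsg.Agent.Helper28.Y5.D3.c3) ^ 10) = (Cfsg.Agent.Helper28.Y5.G0.a * Cfsg.Agent.Helper28.Y5.G0.b1 * Cfsg.Agent.Helper28.Y5.G0.c1 * Cfsg.Agent.Helper28.Y5.G0.a * Cfsg.Agent.Helper28.Y5.G0.b2 * Cfsg.Agent.Helper28.Y5.G0.c2 * Cfsg.Agent.Helper28.Y5.G0.a * Cfsg.Agent.Helper28.Y5.G0.b3 * Cfsg.Agent.Helper28.Y5.G0.c3) ^ 10 := by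
    simp only [map_pow, map_mul, map_inv, FreeGroup.map.of, Cfsg.Agent.Helper28.Y5.D3.inc]
  rw [e]
  exact PresentedGroup.one_of_mem (Or.inr (by simp [Cfsg.Agent.Helper28.Y5.G0.extra]))

theorem rel4 : ∀ r ∈ (Cfsg.Spor.coxRelators Cfsg.Agent.Helper28.Y5.D3.edges ∪ {r | r ∈ Cfsg.Agent.Helper28.Y5.D3.extra}), FreeGroup.lift (fun y => (PresentedGroup.of (Cfsg.Agent.Helper28.Y5.D3.inc y) : Cfsg.Agent.Helper28.Y5.G0)) r = 1 := by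
  intro r hr
  rcases hr with ⟨x, _, y, _, rfl⟩ | hr
  · rw [map_pow, map_mul, FreeGroup.lift_apply_of, FreeGroup.lift_apply_of]
    have e : Cfsg.Spor.coxLabel Cfsg.Agent.Helper28.Y5.D3.edges x y = Cfsg.Spor.coxLabel Cfsg.Agent.Helper28.Y5.G0.edges (Cfsg.Agent.Helper28.Y5.D3.inc x) (Cfsg.Agent.Helper28.Y5.D3.inc y) := by
      cases x <;> cases y <;> decide
    rw [e]
    exact Cfsg.Agent.Helper28.cox_pair Cfsg.Agent.Helper28.Y5.G0.edges Cfsg.Agent.Helper28.Y5.G0.extra _ _ (node _) (node _)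
  · have hr' : r ∈ Cfsg.Agent.Helper28.Y5.D3.extra := hr
    simp only [Cfsg.Agent.Helper28.Y5.D3.extra, List.mem_cons, List.not_mem_nil, or_false] at hr'
    rcases hr' with rfl
    · exact relE4_0

/-- the homomorphism from the auxiliary group -/
noncomputable def f4 : Cfsg.Spor.CoxPresented Cfsg.Agent.Helper28.Y5.D3.Gen Cfsg.Agent.Helper28.Y5.D3.edges Cfsg.Agent.Helper28.Y5.D3.extra →* Cfsg.Agent.Helper28.Y5.G0 :=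
  PresentedGroup.toGroup rel4

theorem range4 : ((Subgroup.closure ({Cfsg.Agent.Helper28.Y5.D2.a, Cfsg.Agent.Helper28.Y5.D2.b1, Cfsg.Agent.Helper28.Y5.D2.c1, Cfsg.Agent.Helper28.Y5.D2.b2, Cfsg.Agent.Helper28.Y5.D2.c2, Cfsg.Agent.Helper28.Y5.D2.b3, Cfsg.Agent.Helper28.Y5.D2.c3} : Set (FreeGroup Cfsg.Agent.Helper28.Y5.D2.Gen))).map (PresentedGroup.mk (Cfsg.Spor.coxRelators Cfsg.Agent.Helper28.Y5.D2.edges ∪ {r | r ∈ Cfsg.Agent.Helper28.Y5.D2.extra}))).map f3 = f4.range := by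
  rw [f3, f4, Cfsg.Agent.Helper28.toGroup_range, Cfsg.Agent.Helper28.toGroup_map_closure]
  congr 1
  ext z
  constructor
  · rintro ⟨s, hs, rfl⟩
    simp only [Set.mem_insert_iff, Set.mem_singleton_iff] at hs
    rcases hs with rfl | rfl | rfl | rfl | rfl | rfl | rfl
    · exact ⟨Cfsg.Agent.Helper28.Y5.D3.Gen.a, (FreeGroup.lift_apply_of (f := (fun y => (PresentedGroup.of (Cfsg.Agent.Helper28.Y5.D2.inc y) : Cfsg.Agent.Helper28.Y5.G0))) (x := Cfsg.Agent.Helper28.Y5.D2.Gen.a)).symm⟩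
    · exact ⟨Cfsg.Agent.Helper28.Y5.D3.Gen.b1, (FreeGroup.lift_apply_of (f := (fun y => (PresentedGroup.of (Cfsg.Agent.Helper28.Y5.D2.inc y) : Cfsg.Agent.Helper28.Y5.G0))) (x := Cfsg.Agent.Helper28.Y5.D2.Gen.b1)).symm⟩
    · exact ⟨Cfsg.Agent.Helper28.Y5.D3.Gen.c1, (FreeGroup.lift_apply_of (f := (fun y => (PresentedGroup.of (Cfsg.Agent.Helper28.Y5.D2.inc y) : Cfsg.Agent.Helper28.Y5.G0))) (x := Cfsg.Agent.Helper28.Y5.D2.Gen.c1)).symm⟩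
    · exact ⟨Cfsg.Agent.Helper28.Y5.D3.Gen.b2, (FreeGroup.lift_apply_of (f := (fun y => (PresentedGroup.of (Cfsg.Agent.Helper28.Y5.D2.inc y) : Cfsg.Agent.Helper28.Y5.G0))) (x := Cfsg.Agent.Helper28.Y5.D2.Gen.b2)).symm⟩
    · exact ⟨Cfsg.Agent.Helper28.Y5.D3.Gen.c2, (FreeGroup.lift_apply_of (f := (fun y => (PresentedGroup.of (Cfsg.Agent.Helper28.Y5.D2.inc y) : Cfsg.Agent.Helper28.Y5.G0))) (x := Cfsg.Agent.Helper28.Y5.D2.Gen.c2)).symm⟩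
    · exact ⟨Cfsg.Agent.Helper28.Y5.D3.Gen.b3, (FreeGroup.lift_apply_of (f := (fun y => (PresentedGroup.of (Cfsg.Agent.Helper28.Y5.D2.inc y) : Cfsg.Agent.Helper28.Y5.G0))) (x := Cfsg.Agent.Helper28.Y5.D2.Gen.b3)).symm⟩
    · exact ⟨Cfsg.Agent.Helper28.Y5.D3.Gen.c3, (FreeGroup.lift_apply_of (f := (fun y => (PresentedGroup.of (Cfsg.Agent.Helper28.Y5.D2.inc y) : Cfsg.Agent.Helper28.Y5.G0))) (x := Cfsg.Agent.Helper28.Y5.D2.Gen.c3)).symm⟩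
  · rintro ⟨y, rfl⟩
    cases y
    · exact ⟨Cfsg.Agent.Helper28.Y5.D2.a, by simp, FreeGroup.lift_apply_of (f := (fun y => (PresentedGroup.of (Cfsg.Agent.Helper28.Y5.D2.inc y) : Cfsg.Agent.Helper28.Y5.G0))) (x := Cfsg.Agent.Helper28.Y5.D2.Gen.a)⟩
    · exact ⟨Cfsg.Agent.Helper28.Y5.D2.b1, by simp, FreeGroup.lift_apply_of (f := (fun y => (PresentedGroup.of (Cfsg.Agent.Helper28.Y5.D2.inc y) : Cfsg.Agent.Helper28.Y5.G0))) (x := Cfsg.Agent.Helper28.Y5.D2.Gen.b1)⟩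
    · exact ⟨Cfsg.Agent.Helper28.Y5.D2.c1, by simp, FreeGroup.lift_apply_of (f := (fun y => (PresentedGroup.of (Cfsg.Agent.Helper28.Y5.D2.inc y) : Cfsg.Agent.Helper28.Y5.G0))) (x := Cfsg.Agent.Helper28.Y5.D2.Gen.c1)⟩
    · exact ⟨Cfsg.Agent.Helper28.Y5.D2.b2, by simp, FreeGroup.lift_apply_of (f := (fun y => (PresentedGroup.of (Cfsg.Agent.Helper28.Y5.D2.inc y) : Cfsg.Agent.Helper28.Y5.G0))) (x := Cfsg.Agent.Helper28.Y5.D2.Gen.b2)⟩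
    · exact ⟨Cfsg.Agent.Helper28.Y5.D2.c2, by simp, FreeGroup.lift_apply_of (f := (fun y => (PresentedGroup.of (Cfsg.Agent.Helper28.Y5.D2.inc y) : Cfsg.Agent.Helper28.Y5.G0))) (x := Cfsg.Agent.Helper28.Y5.D2.Gen.c2)⟩
    · exact ⟨Cfsg.Agent.Helper28.Y5.D2.b3, by simp, FreeGroup.lift_apply_of (f := (fun y => (PresentedGroup.of (Cfsg.Agent.Helper28.Y5.D2.inc y) : Cfsg.Agent.Helper28.Y5.G0))) (x := Cfsg.Agent.Helper28.Y5.D2.Gen.b3)⟩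
    · exact ⟨Cfsg.Agent.Helper28.Y5.D2.c3, by simp, FreeGroup.lift_apply_of (f := (fun y => (PresentedGroup.of (Cfsg.Agent.Helper28.Y5.D2.inc y) : Cfsg.Agent.Helper28.Y5.G0))) (x := Cfsg.Agent.Helper28.Y5.D2.Gen.c3)⟩

theorem rel5 : ∀ r ∈ (Cfsg.Spor.coxRelators Cfsg.Agent.Helper28.Y5.D4.edges ∪ {r | r ∈ Cfsg.Agent.Helper28.Y5.D4.extra}), FreeGroup.lift (fun y => (PresentedGroup.of (Cfsg.Agent.Helper28.Y5.D4.inc y) : Cfsg.Agent.Helper28.Y5.G0)) r = 1 := by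
  intro r hr
  rcases hr with ⟨x, _, y, _, rfl⟩ | hr
  · rw [map_pow, map_mul, FreeGroup.lift_apply_of, FreeGroup.lift_apply_of]
    have e : Cfsg.Spor.coxLabel Cfsg.Agent.Helper28.Y5.D4.edges x y = Cfsg.Spor.coxLabel Cfsg.Agent.Helper28.Y5.G0.edges (Cfsg.Agent.Helper28.Y5.D4.inc x) (Cfsg.Agent.Helper28.Y5.D4.inc y) := by
      cases x <;> cases y <;> decide
    rw [e]
    exact Cfsg.Agent.Helper28.cox_pair Cfsg.Agent.Helper28.Y5.G0.edges Cfsg.Agent.Helper28.Y5.G0.extra _ _ (node _) (node _)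
  · have hr' : r ∈ Cfsg.Agent.Helper28.Y5.D4.extra := hr
    exact absurd hr' (by simp [Cfsg.Agent.Helper28.Y5.D4.extra])

/-- the homomorphism from the auxiliary group -/
noncomputable def f5 : Cfsg.Spor.CoxPresented Cfsg.Agent.Helper28.Y5.D4.Gen Cfsg.Agent.Helper28.Y5.D4.edges Cfsg.Agent.Helper28.Y5.D4.extra →* Cfsg.Agent.Helper28.Y5.G0 :=
  PresentedGroup.toGroup rel5

theorem range5 : ((Subgroup.closure ({Cfsg.Agent.Helper28.Y5.D3.a, Cfsg.Agent.Helper28.Y5.D3.b1, Cfsg.Agent.Helper28.Y5.D3.c1, Cfsg.Agent.Helper28.Y5.D3.b2, Cfsg.Agent.Helper28.Y5.D3.c2, Cfsg.Agent.Helper28.Y5.D3.b3} : Set (FreeGroup Cfsg.Agent.Helper28.Y5.D3.Gen))).map (PresentedGroup.mk (Cfsg.Spor.coxRelators Cfsg.Agent.Helper28.Y5.D3.edges ∪ {r | r ∈ Cfsg.Agent.Helper28.Y5.D3.extra}))).map f4 = f5.range := by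
  rw [f4, f5, Cfsg.Agent.Helper28.toGroup_range, Cfsg.Agent.Helper28.toGroup_map_closure]
  congr 1
  ext z
  constructor
  · rintro ⟨s, hs, rfl⟩
    simp only [Set.mem_insert_iff, Set.mem_singleton_iff] at hs
    rcases hs with rfl | rfl | rfl | rfl | rfl | rfl
    · exact ⟨Cfsg.Agent.Helper28.Y5.D4.Gen.a, (FreeGroup.lift_apply_of (f := (fun y => (PresentedGroup.of (Cfsg.Agent.Helper28.Y5.D3.inc y) : Cfsg.Agent.Helper28.Y5.G0))) (x := Cfsg.Agent.Helper28.Y5.D3.Gen.a)).symm⟩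
    · exact ⟨Cfsg.Agent.Helper28.Y5.D4.Gen.b1, (FreeGroup.lift_apply_of (f := (fun y => (PresentedGroup.of (Cfsg.Agent.Helper28.Y5.D3.inc y) : Cfsg.Agent.Helper28.Y5.G0))) (x := Cfsg.Agent.Helper28.Y5.D3.Gen.b1)).symm⟩
    · exact ⟨Cfsg.Agent.Helper28.Y5.D4.Gen.c1, (FreeGroup.lift_apply_of (f := (fun y => (PresentedGroup.of (Cfsg.Agent.Helper28.Y5.D3.inc y) : Cfsg.Agent.Helper28.Y5.G0))) (x := Cfsg.Agent.Helper28.Y5.D3.Gen.c1)).symm⟩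
    · exact ⟨Cfsg.Agent.Helper28.Y5.D4.Gen.b2, (FreeGroup.lift_apply_of (f := (fun y => (PresentedGroup.of (Cfsg.Agent.Helper28.Y5.D3.inc y) : Cfsg.Agent.Helper28.Y5.G0))) (x := Cfsg.Agent.Helper28.Y5.D3.Gen.b2)).symm⟩
    · exact ⟨Cfsg.Agent.Helper28.Y5.D4.Gen.c2, (FreeGroup.lift_apply_of (f := (fun y => (PresentedGroup.of (Cfsg.Agent.Helper28.Y5.D3.inc y) : Cfsg.Agent.Helper28.Y5.G0))) (x := Cfsg.Agent.Helper28.Y5.D3.Gen.c2)).symm⟩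
    · exact ⟨Cfsg.Agent.Helper28.Y5.D4.Gen.b3, (FreeGroup.lift_apply_of (f := (fun y => (PresentedGroup.of (Cfsg.Agent.Helper28.Y5.D3.inc y) : Cfsg.Agent.Helper28.Y5.G0))) (x := Cfsg.Agent.Helper28.Y5.D3.Gen.b3)).symm⟩
  · rintro ⟨y, rfl⟩
    cases y
    · exact ⟨Cfsg.Agent.Helper28.Y5.D3.a, by simp, FreeGroup.lift_apply_of (f := (fun y => (PresentedGroup.of (Cfsg.Agent.Helper28.Y5.D3.inc y) : Cfsg.Agent.Helper28.Y5.G0))) (x := Cfsg.Agent.Helper28.Y5.D3.Gen.a)⟩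
    · exact ⟨Cfsg.Agent.Helper28.Y5.D3.b1, by simp, FreeGroup.lift_apply_of (f := (fun y => (PresentedGroup.of (Cfsg.Agent.Helper28.Y5.D3.inc y) : Cfsg.Agent.Helper28.Y5.G0))) (x := Cfsg.Agent.Helper28.Y5.D3.Gen.b1)⟩
    · exact ⟨Cfsg.Agent.Helper28.Y5.D3.c1, by simp, FreeGroup.lift_apply_of (f := (fun y => (PresentedGroup.of (Cfsg.Agent.Helper28.Y5.D3.inc y) : Cfsg.Agent.Helper28.Y5.G0))) (x := Cfsg.Agent.Helper28.Y5.D3.Gen.c1)⟩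
    · exact ⟨Cfsg.Agent.Helper28.Y5.D3.b2, by simp, FreeGroup.lift_apply_of (f := (fun y => (PresentedGroup.of (Cfsg.Agent.Helper28.Y5.D3.inc y) : Cfsg.Agent.Helper28.Y5.G0))) (x := Cfsg.Agent.Helper28.Y5.D3.Gen.b2)⟩
    · exact ⟨Cfsg.Agent.Helper28.Y5.D3.c2, by simp, FreeGroup.lift_apply_of (f := (fun y => (PresentedGroup.of (Cfsg.Agent.Helper28.Y5.D3.inc y) : Cfsg.Agent.Helper28.Y5.G0))) (x := Cfsg.Agent.Helper28.Y5.D3.Gen.c2)⟩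
    · exact ⟨Cfsg.Agent.Helper28.Y5.D3.b3, by simp, FreeGroup.lift_apply_of (f := (fun y => (PresentedGroup.of (Cfsg.Agent.Helper28.Y5.D3.inc y) : Cfsg.Agent.Helper28.Y5.G0))) (x := Cfsg.Agent.Helper28.Y5.D3.Gen.b3)⟩

theorem rel6 : ∀ r ∈ (Cfsg.Spor.coxRelators Cfsg.Agent.Helper28.Y5.D5.edges ∪ {r | r ∈ Cfsg.Agent.Helper28.Y5.D5.extra}), FreeGroup.lift (fun y => (PresentedGroup.of (Cfsg.Agent.Helper28.Y5.D5.inc y) : Cfsg.Agent.Helper28.Y5.G0)) r = 1 := by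
  intro r hr
  rcases hr with ⟨x, _, y, _, rfl⟩ | hr
  · rw [map_pow, map_mul, FreeGroup.lift_apply_of, FreeGroup.lift_apply_of]
    have e : Cfsg.Spor.coxLabel Cfsg.Agent.Helper28.Y5.D5.edges x y = Cfsg.Spor.coxLabel Cfsg.Agent.Helper28.Y5.G0.edges (Cfsg.Agent.Helper28.Y5.D5.inc x) (Cfsg.Agent.Helper28.Y5.D5.inc y) := by
      cases x <;> cases y <;> decide
    rw [e]
    exact Cfsg.Agent.Helper28.cox_pair Cfsg.Agent.Helper28.Y5.G0.edges Cfsg.Agent.Helper28.Y5.G0.extra _ _ (node _) (node _)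
  · have hr' : r ∈ Cfsg.Agent.Helper28.Y5.D5.extra := hr
    exact absurd hr' (by simp [Cfsg.Agent.Helper28.Y5.D5.extra])

/-- the homomorphism from the auxiliary group -/
noncomputable def f6 : Cfsg.Spor.CoxPresented Cfsg.Agent.Helper28.Y5.D5.Gen Cfsg.Agent.Helper28.Y5.D5.edges Cfsg.Agent.Helper28.Y5.D5.extra →* Cfsg.Agent.Helper28.Y5.G0 :=
  PresentedGroup.toGroup rel6

theorem range6 : ((Subgroup.closure ({Cfsg.Agent.Helper28.Y5.D4.a, Cfsg.Agent.Helper28.Y5.D4.b1, Cfsg.Agent.Helper28.Y5.D4.c1, Cfsg.Agent.Helper28.Y5.D4.b2, Cfsg.Agent.Helper28.Y5.D4.b3} : Set (FreeGroup Cfsg.Agent.Helper28.Y5.D4.Gen))).map (PresentedGroup.mk (Cfsg.Spor.coxRelators Cfsg.Agent.Helper28.Y5.D4.edges ∪ {r | r ∈ Cfsg.Agent.Helper28.Y5.D4.extra}))).map f5 = f6.range := by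
  rw [f5, f6, Cfsg.Agent.Helper28.toGroup_range, Cfsg.Agent.Helper28.toGroup_map_closure]
  congr 1
  ext z
  constructor
  · rintro ⟨s, hs, rfl⟩
    simp only [Set.mem_insert_iff, Set.mem_singleton_iff] at hs
    rcases hs with rfl | rfl | rfl | rfl | rfl
    · exact ⟨Cfsg.Agent.Helper28.Y5.D5.Gen.a, (FreeGroup.lift_apply_of (f := (fun y => (PresentedGroup.of (Cfsg.Agent.Helper28.Y5.D4.inc y) : Cfsg.Agent.Helper28.Y5.G0))) (x := Cfsg.Agent.Helper28.Y5.D4.Gen.a)).symm⟩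
    · exact ⟨Cfsg.Agent.Helper28.Y5.D5.Gen.b1, (FreeGroup.lift_apply_of (f := (fun y => (PresentedGroup.of (Cfsg.Agent.Helper28.Y5.D4.inc y) : Cfsg.Agent.Helper28.Y5.G0))) (x := Cfsg.Agent.Helper28.Y5.D4.Gen.b1)).symm⟩
    · exact ⟨Cfsg.Agent.Helper28.Y5.D5.Gen.c1, (FreeGroup.lift_apply_of (f := (fun y => (PresentedGroup.of (Cfsg.Agent.Helper28.Y5.D4.inc y) : Cfsg.Agent.Helper28.Y5.G0))) (x := Cfsg.Agent.Helper28.Y5.D4.Gen.c1)).symm⟩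
    · exact ⟨Cfsg.Agent.Helper28.Y5.D5.Gen.b2, (FreeGroup.lift_apply_of (f := (fun y => (PresentedGroup.of (Cfsg.Agent.Helper28.Y5.D4.inc y) : Cfsg.Agent.Helper28.Y5.G0))) (x := Cfsg.Agent.Helper28.Y5.D4.Gen.b2)).symm⟩
    · exact ⟨Cfsg.Agent.Helper28.Y5.D5.Gen.b3, (FreeGroup.lift_apply_of (f := (fun y => (PresentedGroup.of (Cfsg.Agent.Helper28.Y5.D4.inc y) : Cfsg.Agent.Helper28.Y5.G0))) (x := Cfsg.Agent.Helper28.Y5.D4.Gen.b3)).symm⟩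
  · rintro ⟨y, rfl⟩
    cases y
    · exact ⟨Cfsg.Agent.Helper28.Y5.D4.a, by simp, FreeGroup.lift_apply_of (f := (fun y => (PresentedGroup.of (Cfsg.Agent.Helper28.Y5.D4.inc y) : Cfsg.Agent.Helper28.Y5.G0))) (x := Cfsg.Agent.Helper28.Y5.D4.Gen.a)⟩
    · exact ⟨Cfsg.Agent.Helper28.Y5.D4.b1, by simp, FreeGroup.lift_apply_of (f := (fun y => (PresentedGroup.of (Cfsg.Agent.Helper28.Y5.D4.inc y) : Cfsg.Agent.Helper28.Y5.G0))) (x := Cfsg.Agent.Helper28.Y5.D4.Gen.b1)⟩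
    · exact ⟨Cfsg.Agent.Helper28.Y5.D4.c1, by simp, FreeGroup.lift_apply_of (f := (fun y => (PresentedGroup.of (Cfsg.Agent.Helper28.Y5.D4.inc y) : Cfsg.Agent.Helper28.Y5.G0))) (x := Cfsg.Agent.Helper28.Y5.D4.Gen.c1)⟩
    · exact ⟨Cfsg.Agent.Helper28.Y5.D4.b2, by simp, FreeGroup.lift_apply_of (f := (fun y => (PresentedGroup.of (Cfsg.Agent.Helper28.Y5.D4.inc y) : Cfsg.Agent.Helper28.Y5.G0))) (x := Cfsg.Agent.Helper28.Y5.D4.Gen.b2)⟩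
    · exact ⟨Cfsg.Agent.Helper28.Y5.D4.b3, by simp, FreeGroup.lift_apply_of (f := (fun y => (PresentedGroup.of (Cfsg.Agent.Helper28.Y5.D4.inc y) : Cfsg.Agent.Helper28.Y5.G0))) (x := Cfsg.Agent.Helper28.Y5.D4.Gen.b3)⟩

theorem rel7 : ∀ r ∈ (Cfsg.Spor.coxRelators Cfsg.Agent.Helper28.Y5.D6.edges ∪ {r | r ∈ Cfsg.Agent.Helper28.Y5.D6.extra}), FreeGroup.lift (fun y => (PresentedGroup.of (Cfsg.Agent.Helper28.Y5.D6.inc y) : Cfsg.Agent.Helper28.Y5.G0)) r = 1 := by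
  intro r hr
  rcases hr with ⟨x, _, y, _, rfl⟩ | hr
  · rw [map_pow, map_mul, FreeGroup.lift_apply_of, FreeGroup.lift_apply_of]
    have e : Cfsg.Spor.coxLabel Cfsg.Agent.Helper28.Y5.D6.edges x y = Cfsg.Spor.coxLabel Cfsg.Agent.Helper28.Y5.G0.edges (Cfsg.Agent.Helper28.Y5.D6.inc x) (Cfsg.Agent.Helper28.Y5.D6.inc y) := by
      cases x <;> cases y <;> decide
    rw [e]
    exact Cfsg.Agent.Helper28.cox_pair Cfsg.Agent.Helper28.Y5.G0.edges Cfsg.Agent.Helper28.Y5.G0.extra _ _ (node _) (node _)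
  · have hr' : r ∈ Cfsg.Agent.Helper28.Y5.D6.extra := hr
    exact absurd hr' (by simp [Cfsg.Agent.Helper28.Y5.D6.extra])

/-- the homomorphism from the auxiliary group -/
noncomputable def f7 : Cfsg.Spor.CoxPresented Cfsg.Agent.Helper28.Y5.D6.Gen Cfsg.Agent.Helper28.Y5.D6.edges Cfsg.Agent.Helper28.Y5.D6.extra →* Cfsg.Agent.Helper28.Y5.G0 :=
  PresentedGroup.toGroup rel7

theorem range7 : ((Subgroup.closure ({Cfsg.Agent.Helper28.Y5.D5.a, Cfsg.Agent.Helper28.Y5.D5.b1, Cfsg.Agent.Helper28.Y5.D5.c1, Cfsg.Agent.Helper28.Y5.D5.b2} : Set (FreeGroup Cfsg.Agent.Helper28.Y5.D5.Gen))).map (PresentedGroup.mk (Cfsg.Spor.coxRelators Cfsg.Agent.Helper28.Y5.D5.edges ∪ {r | r ∈ Cfsg.Agent.Helper28.Y5.D5.extra}))).map f6 = f7.range := by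
  rw [f6, f7, Cfsg.Agent.Helper28.toGroup_range, Cfsg.Agent.Helper28.toGroup_map_closure]
  congr 1
  ext z
  constructor
  · rintro ⟨s, hs, rfl⟩
    simp only [Set.mem_insert_iff, Set.mem_singleton_iff] at hs
    rcases hs with rfl | rfl | rfl | rfl
    · exact ⟨Cfsg.Agent.Helper28.Y5.D6.Gen.a, (FreeGroup.lift_apply_of (f := (fun y => (PresentedGroup.of (Cfsg.Agent.Helper28.Y5.D5.inc y) : Cfsg.Agent.Helper28.Y5.G0))) (x := Cfsg.Agent.Helper28.Y5.D5.Gen.a)).symm⟩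
    · exact ⟨Cfsg.Agent.Helper28.Y5.D6.Gen.b1, (FreeGroup.lift_apply_of (f := (fun y => (PresentedGroup.of (Cfsg.Agent.Helper28.Y5.D5.inc y) : Cfsg.Agent.Helper28.Y5.G0))) (x := Cfsg.Agent.Helper28.Y5.D5.Gen.b1)).symm⟩
    · exact ⟨Cfsg.Agent.Helper28.Y5.D6.Gen.c1, (FreeGroup.lift_apply_of (f := (fun y => (PresentedGroup.of (Cfsg.Agent.Helper28.Y5.D5.inc y) : Cfsg.Agent.Helper28.Y5.G0))) (x := Cfsg.Agent.Helper28.Y5.D5.Gen.c1)).symm⟩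
    · exact ⟨Cfsg.Agent.Helper28.Y5.D6.Gen.b2, (FreeGroup.lift_apply_of (f := (fun y => (PresentedGroup.of (Cfsg.Agent.Helper28.Y5.D5.inc y) : Cfsg.Agent.Helper28.Y5.G0))) (x := Cfsg.Agent.Helper28.Y5.D5.Gen.b2)).symm⟩
  · rintro ⟨y, rfl⟩
    cases y
    · exact ⟨Cfsg.Agent.Helper28.Y5.D5.a, by simp, FreeGroup.lift_apply_of (f := (fun y => (PresentedGroup.of (Cfsg.Agent.Helper28.Y5.D5.inc y) : Cfsg.Agent.Helper28.Y5.G0))) (x := Cfsg.Agent.Helper28.Y5.D5.Gen.a)⟩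
    · exact ⟨Cfsg.Agent.Helper28.Y5.D5.b1, by simp, FreeGroup.lift_apply_of (f := (fun y => (PresentedGroup.of (Cfsg.Agent.Helper28.Y5.D5.inc y) : Cfsg.Agent.Helper28.Y5.G0))) (x := Cfsg.Agent.Helper28.Y5.D5.Gen.b1)⟩
    · exact ⟨Cfsg.Agent.Helper28.Y5.D5.c1, by simp, FreeGroup.lift_apply_of (f := (fun y => (PresentedGroup.of (Cfsg.Agent.Helper28.Y5.D5.inc y) : Cfsg.Agent.Helper28.Y5.G0))) (x := Cfsg.Agent.Helper28.Y5.D5.Gen.c1)⟩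
    · exact ⟨Cfsg.Agent.Helper28.Y5.D5.b2, by simp, FreeGroup.lift_apply_of (f := (fun y => (PresentedGroup.of (Cfsg.Agent.Helper28.Y5.D5.inc y) : Cfsg.Agent.Helper28.Y5.G0))) (x := Cfsg.Agent.Helper28.Y5.D5.Gen.b2)⟩

theorem bot7 : ((Subgroup.closure (∅ : Set (FreeGroup Cfsg.Agent.Helper28.Y5.D6.Gen))).map (PresentedGroup.mk (Cfsg.Spor.coxRelators Cfsg.Agent.Helper28.Y5.D6.edges ∪ {r | r ∈ Cfsg.Agent.Helper28.Y5.D6.extra}))).map f7 = ⊥ := by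
  rw [Subgroup.closure_empty, Subgroup.map_bot, Subgroup.map_bot]

theorem card7 : Finite f7.range ∧ Nat.card f7.range ≤ 120 := by
  have h := Cfsg.Agent.Helper28.card_range_le f7 ((Subgroup.closure (∅ : Set (FreeGroup Cfsg.Agent.Helper28.Y5.D6.Gen))).map (PresentedGroup.mk (Cfsg.Spor.coxRelators Cfsg.Agent.Helper28.Y5.D6.edges ∪ {r | r ∈ Cfsg.Agent.Helper28.Y5.D6.extra}))) 120 Cfsg.Agent.Helper28.Y5D6.cert.index_eq (by norm_num) (by rw [bot7]; infer_instance)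
  rw [bot7, Subgroup.card_bot, Nat.mul_one] at h
  exact h

theorem card6 : Finite f6.range ∧ Nat.card f6.range ≤ 16 * (120) := by
  have h0 := card7
  have h := Cfsg.Agent.Helper28.card_range_le f6 ((Subgroup.closure ({Cfsg.Agent.Helper28.Y5.D5.a, Cfsg.Agent.Helper28.Y5.D5.b1, Cfsg.Agent.Helper28.Y5.D5.c1, Cfsg.Agent.Helper28.Y5.D5.b2} : Set (FreeGroup Cfsg.Agent.Helper28.Y5.D5.Gen))).map (PresentedGroup.mk (Cfsg.Spor.coxRelators Cfsg.Agent.Helper28.Y5.D5.edges ∪ {r | r ∈ Cfsg.Agent.Helper28.Y5.D5.extra}))) 16 Cfsg.Agent.Helper28.Y5D5.cert.index_eq (by norm_num) (by rw [range7]; exact h0.1)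
  rw [range7] at h
  exact ⟨h.1, le_trans h.2 (Nat.mul_le_mul_left _ h0.2)⟩

theorem card5 : Finite f5.range ∧ Nat.card f5.range ≤ 27 * (16 * (120)) := by
  have h0 := card6
  have h := Cfsg.Agent.Helper28.card_range_le f5 ((Subgroup.closure ({Cfsg.Agent.Helper28.Y5.D4.a, Cfsg.Agent.Helper28.Y5.D4.b1, Cfsg.Agent.Helper28.Y5.D4.c1, Cfsg.Agent.Helper28.Y5.D4.b2, Cfsg.Agent.Helper28.Y5.D4.b3} : Set (FreeGroup Cfsg.Agent.Helper28.Y5.D4.Gen))).map (PresentedGroup.mk (Cfsg.Spor.coxRelators Cfsg.Agent.Helper28.Y5.D4.edges ∪ {r | r ∈ Cfsg.Agent.Helper28.Y5.D4.extra}))) 27 Cfsg.Agent.Helper28.Y5D4.cert.index_eq (by norm_num) (by rw [range6]; exact h0.1)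
  rw [range6] at h
  exact ⟨h.1, le_trans h.2 (Nat.mul_le_mul_left _ h0.2)⟩

theorem card4 : Finite f4.range ∧ Nat.card f4.range ≤ 243 * (27 * (16 * (120))) := by
  have h0 := card5
  have h := Cfsg.Agent.Helper28.card_range_le f4 ((Subgroup.closure ({Cfsg.Agent.Helper28.Y5.D3.a, Cfsg.Agent.Helper28.Y5.D3.b1, Cfsg.Agent.Helper28.Y5.D3.c1, Cfsg.Agent.Helper28.Y5.D3.b2, Cfsg.Agent.Helper28.Y5.D3.c2, Cfsg.Agent.Helper28.Y5.D3.b3} : Set (FreeGroup Cfsg.Agent.Helper28.Y5.D3.Gen))).map (PresentedGroup.mk (Cfsg.Spor.coxRelators Cfsg.Agent.Helper28.Y5.D3.edges ∪ {r | r ∈ Cfsg.Agent.Helper28.Y5.D3.extra}))) 243 Cfsg.Agent.Helper28.Y5D3.cert.index_eq (by norm_num) (by rw [range5]; exact h0.1)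
  rw [range5] at h
  exact ⟨h.1, le_trans h.2 (Nat.mul_le_mul_left _ h0.2)⟩

theorem card3 : Finite f3.range ∧ Nat.card f3.range ≤ 728 * (243 * (27 * (16 * (120)))) := by
  have h0 := card4
  have h := Cfsg.Agent.Helper28.card_range_le f3 ((Subgroup.closure ({Cfsg.Agent.Helper28.Y5.D2.a, Cfsg.Agent.Helper28.Y5.D2.b1, Cfsg.Agent.Helper28.Y5.D2.c1, Cfsg.Agent.Helper28.Y5.D2.b2, Cfsg.Agent.Helper28.Y5.D2.c2, Cfsg.Agent.Helper28.Y5.D2.b3, Cfsg.Agent.Helper28.Y5.D2.c3} : Set (FreeGroup Cfsg.Agent.Helper28.Y5.D2.Gen))).map (PresentedGroup.mk (Cfsg.Spor.coxRelators Cfsg.Agent.Helper28.Y5.D2.edges ∪ {r | r ∈ Cfsg.Agent.Helper28.Y5.D2.extra}))) 728 Cfsg.Agent.Helper28.Y5D2.cert.index_eq (by norm_num) (by rw [range4]; exact h0.1)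
  rw [range4] at h
  exact ⟨h.1, le_trans h.2 (Nat.mul_le_mul_left _ h0.2)⟩

theorem card2 : Finite f2.range ∧ Nat.card f2.range ≤ 28160 * (728 * (243 * (27 * (16 * (120))))) := by
  have h0 := card3
  have h := Cfsg.Agent.Helper28.card_range_le f2 ((Subgroup.closure ({Cfsg.Agent.Helper28.Y5.D1.a, Cfsg.Agent.Helper28.Y5.D1.b1, Cfsg.Agent.Helper28.Y5.D1.c1, Cfsg.Agent.Helper28.Y5.D1.d1, Cfsg.Agent.Helper28.Y5.D1.b2, Cfsg.Agent.Helper28.Y5.D1.c2, Cfsg.Agent.Helper28.Y5.D1.b3, Cfsg.Agent.Helper28.Y5.D1.c3} : Set (FreeGroup Cfsg.Agent.Helper28.Y5.D1.Gen))).map (PresentedGroup.mk (Cfsg.Spor.coxRelators Cfsg.Agent.Helper28.Y5.D1.edges ∪ {r | r ∈ Cfsg.Agent.Helper28.Y5.D1.extra}))) 28160 Cfsg.Agent.Helper28.Y5D1.cert.index_eq (by norm_num) (by rw [range3]; exact h0.1)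
  rw [range3] at h
  exact ⟨h.1, le_trans h.2 (Nat.mul_le_mul_left _ h0.2)⟩

theorem card1 : Finite f1.range ∧ Nat.card f1.range ≤ 31671 * (28160 * (728 * (243 * (27 * (16 * (120)))))) := by
  have h0 := card2
  have h := Cfsg.Agent.Helper28.card_range_le f1 ((Subgroup.closure ({Cfsg.Agent.Helper28.Y5.D0.a, Cfsg.Agent.Helper28.Y5.D0.b1, Cfsg.Agent.Helper28.Y5.D0.c1, Cfsg.Agent.Helper28.Y5.D0.d1, Cfsg.Agent.Helper28.Y5.D0.b2, Cfsg.Agent.Helper28.Y5.D0.c2, Cfsg.Agent.Helper28.Y5.D0.d2, Cfsg.Agent.Helper28.Y5.D0.b3, Cfsg.Agent.Helper28.Y5.D0.c3} : Set (FreeGroup Cfsg.Agent.Helper28.Y5.D0.Gen))).map (PresentedGroup.mk (Cfsg.Spor.coxRelators Cfsg.Agent.Helper28.Y5.D0.edges ∪ {r | r ∈ Cfsg.Agent.Helper28.Y5.D0.extra}))) 31671 Cfsg.Agent.Helper28.Y5D0.cert.index_eq (by norm_num) (by rw [range2]; exact h0.1)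
  rw [range2] at h
  exact ⟨h.1, le_trans h.2 (Nat.mul_le_mul_left _ h0.2)⟩

/-- The presented group is finite, of order at most the expected one. -/
theorem card_le : Finite Cfsg.Agent.Helper28.Y5.G0 ∧ Nat.card Cfsg.Agent.Helper28.Y5.G0 ≤ 1 * (31671 * (28160 * (728 * (243 * (27 * (16 * (120))))))) := by
  have h1 := card1
  rw [range1] at h1
  have hmul := ((Subgroup.closure ({Cfsg.Agent.Helper28.Y5.G0.a, Cfsg.Agent.Helper28.Y5.G0.b1, Cfsg.Agent.Helper28.Y5.G0.c1, Cfsg.Agent.Helper28.Y5.G0.d1, Cfsg.Agent.Helper28.Y5.G0.e1, Cfsg.Agent.Helper28.Y5.G0.b2, Cfsg.Agent.Helper28.Y5.G0.c2, Cfsg.Agent.Helper28.Y5.G0.d2, Cfsg.Agent.Helper28.Y5.G0.b3, Cfsg.Agent.Helper28.Y5.G0.c3} : Set (FreeGroup Cfsg.Agent.Helper28.Y5.G0.Gen))).map (PresentedGroup.mk (Cfsg.Spor.coxRelators Cfsg.Agent.Helper28.Y5.G0.edges ∪ {r | r ∈ Cfsg.Agent.Helper28.Y5.G0.extra}))).card_mul_index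
  rw [Cfsg.Agent.Helper28.Y5T.cert.index_eq] at hmul
  have hfin := h1.1
  have hpos : 0 < Nat.card ((Subgroup.closure ({Cfsg.Agent.Helper28.Y5.G0.a, Cfsg.Agent.Helper28.Y5.G0.b1, Cfsg.Agent.Helper28.Y5.G0.c1, Cfsg.Agent.Helper28.Y5.G0.d1, Cfsg.Agent.Helper28.Y5.G0.e1, Cfsg.Agent.Helper28.Y5.G0.b2, Cfsg.Agent.Helper28.Y5.G0.c2, Cfsg.Agent.Helper28.Y5.G0.d2, Cfsg.Agent.Helper28.Y5.G0.b3, Cfsg.Agent.Helper28.Y5.G0.c3} : Set (FreeGroup Cfsg.Agent.Helper28.Y5.G0.Gen))).map (PresentedGroup.mk (Cfsg.Spor.coxRelators Cfsg.Agent.Helper28.Y5.G0.edges ∪ {r | r ∈ Cfsg.Agent.Helper28.Y5.G0.extra}))) := Nat.card_pos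
  have hne : Nat.card Cfsg.Agent.Helper28.Y5.G0 ≠ 0 := by
    rw [← hmul]
    exact Nat.mul_ne_zero (Nat.pos_iff_ne_zero.mp hpos) (by norm_num)
  refine ⟨Nat.finite_of_card_ne_zero hne, ?_⟩
  rw [← hmul, Nat.mul_comm]
  exact Nat.mul_le_mul_left _ h1.2

end Cfsg.Agent.Helper28.Y5
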