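import Cfsg.Agent.Helper28.TCL3
import Cfsg.Agent.Helper28.F23.Simple
import Cfsg.Agent.Helper28.Y5.Order
import Cfsg.Prelude.Def_Spor_M

/-!
# The end nodes of the diagram Y555 are redundant (helper28)

In the group presented on the diagram Y555 with the spider relation alone, every end node `f_i` is the
ninth power of a Coxeter element of a sub-diagram of type E7.  The proof works in the group `G0` presented
on the sub-diagram Y532 (centre `a`, arms `b1 c1 d1 e1 f1`, `b2 c2 d2`, `b3 c3`) with the spider relation: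

* a coset enumeration shows that `G0` is generated by the nodes other than `f1`, so `G0` is a quotient of
  the group presented on Y432 with the spider relation, whose order is at most `2 * |Fi23|` by a tower of
  coset enumerations;
* `G0` maps onto the presented group Fi23 (the node `f1` goes to `(d e c h f b g)^9`; the relators are
  checked in the faithful permutation representation of Fi23 on 31671 points), so the kernel has at most two
  elements, and it contains an element of sign `-1`;
* hence an element of `G0` with trivial image in Fi23 and trivial sign is trivial.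

Three inclusions of Y532 in Y555 (the long arm being any of the three arms) carry the relations over.
-/

set_option autoImplicit false

namespace Cfsg.Agent.Helper28.Y5

open Cfsg.Spor

/-! ### words in Fi23 -/

/-- the value in Fi23 of a word in the numbered generators -/
noncomputable abbrev wv (l : List ℕ) : Fi23 :=
  (l.map (Cfsg.Agent.Helper28.coxVal Fi23.edges Fi23.extra Cfsg.Agent.Helper28.C1689.gen
    Cfsg.Agent.Helper28.C1689.D.jc)).prod

theorem wv_append (l1 l2 : List ℕ) : wv (l1 ++ l2) = wv l1 * wv l2 := by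
  show ((l1 ++ l2).map _).prod = (l1.map _).prod * (l2.map _).prod
  rw [List.map_append, List.prod_append]

/-- the base of the stabiliser chain of Fi23 on 31671 points -/
noncomputable abbrev base23 : List ℕ :=
  [Cfsg.Agent.Helper28.F23L.ov5 0, Cfsg.Agent.Helper28.F23L.ov4 0, Cfsg.Agent.Helper28.F23L.ov3 0,
    Cfsg.Agent.Helper28.F23L.ov2 0, 0]

theorem fix_bot23 : Cfsg.Agent.Helper28.fixSub Cfsg.Agent.Helper28.C1689.cert.perm base23 = ⊥ := by
  have := Cfsg.Agent.Helper28.F23.finite
  have hlb := Cfsg.Agent.Helper28.F23L.lb_chain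
  have e1 : 31671 * 28160 * 21840 * 7776 * 27 = 4089470473293004800 := by norm_num
  rw [e1, Cfsg.Agent.Helper28.F23.card_eq] at hlb
  apply Subgroup.eq_bot_of_card_le
  exact Nat.le_of_mul_le_mul_left (by rw [Nat.mul_one]; exact hlb) (by norm_num)

/-- equality of word values in Fi23, checked on the base -/
theorem wv_eq (l1 l2 : List ℕ)
    (h1 : Cfsg.Agent.Helper28.letChk Cfsg.Agent.Helper28.C1689.D.jc l1 = true)
    (h2 : Cfsg.Agent.Helper28.letChk Cfsg.Agent.Helper28.C1689.D.jc l2 = true)
    (h : Cfsg.Agent.Helper28.eqBase Cfsg.Agent.Helper28.C1689.T l1 l2 base23 = true) :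
    wv l1 = wv l2 :=
  Cfsg.Agent.Helper28.C1689.cert.word_eq_base _ fix_bot23 l1 l2 h1 h2 h

/-- the power of a word -/
def rep : ℕ → List ℕ → List ℕ
  | 0, _ => []
  | n + 1, l => l ++ rep n l

theorem wv_rep (n : ℕ) (l : List ℕ) : wv (rep n l) = wv l ^ n := by
  induction n with
  | zero =>
    show wv [] = _
    rw [pow_zero]
    rfl
  | succ n ih =>
    show wv (l ++ rep n l) = _
    rw [wv_append, ih, pow_succ']

theorem wv_single (k : ℕ) (hk : k < Cfsg.Agent.Helper28.C1689.D.jc) :
    wv [k] = PresentedGroup.of (Cfsg.Agent.Helper28.C1689.gen k) := by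
  show ([k].map _).prod = _
  rw [List.map_cons, List.map_nil, List.prod_cons, List.prod_nil, mul_one]
  exact Cfsg.Agent.Helper28.coxVal_of k hk

/-! ### the homomorphism from `G0` onto Fi23 -/

/-- the images in Fi23 of the generators of `G0`, as words: the centre `a` goes to `d`, the arms to
`e f g j`, `c b a`, `h i`, and the end node `f1` to `(d e c h f b g)^9` -/
def gl : G0.Gen → List ℕ
  | .a => [3]
  | .b1 => [4]
  | .c1 => [5]
  | .d1 => [6]
  | .e1 => [7]
  | .f1 => rep 9 [3, 4, 2, 8, 5, 1, 6]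
  | .b2 => [2]
  | .c2 => [1]
  | .d2 => [0]
  | .b3 => [8]
  | .c3 => [9]

/-- the word of a list of generators -/
def glw : List G0.Gen → List ℕ
  | [] => []
  | x :: l => gl x ++ glw l

theorem lift_prod (l : List G0.Gen) :
    FreeGroup.lift (fun x => wv (gl x)) ((l.map FreeGroup.of).prod) = wv (glw l) := by
  induction l with
  | nil =>
    rw [List.map_nil, List.prod_nil, map_one]
    rfl
  | cons x l ih =>
    rw [List.map_cons, List.prod_cons, map_mul, FreeGroup.lift_apply_of, ih]
    exact (wv_append _ _).symm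

theorem pair_let (x y : G0.Gen) : Cfsg.Agent.Helper28.letChk Cfsg.Agent.Helper28.C1689.D.jc
    (rep (coxLabel G0.edges x y) (gl x ++ gl y)) = true := by
  cases x <;> cases y <;> decide +kernel

theorem pair_base (x y : G0.Gen) : Cfsg.Agent.Helper28.eqBase Cfsg.Agent.Helper28.C1689.T
    (rep (coxLabel G0.edges x y) (gl x ++ gl y)) [] base23 = true := by
  cases x <;> cases y <;> decide +kernel

theorem theta_rel : ∀ r ∈ coxRelators G0.edges ∪ {r | r ∈ G0.extra},
    FreeGroup.lift (fun x => wv (gl x)) r = 1 := by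
  intro r hr
  rcases hr with ⟨x, _, y, _, rfl⟩ | hr
  · rw [map_pow, map_mul, FreeGroup.lift_apply_of, FreeGroup.lift_apply_of, ← wv_append, ← wv_rep]
    exact wv_eq _ [] (pair_let x y) (by decide +kernel) (pair_base x y)
  · have hr' : r ∈ G0.extra := hr
    simp only [G0.extra, List.mem_cons, List.not_mem_nil, or_false] at hr'
    subst hr'
    have e : (G0.a * G0.b1 * G0.c1 * G0.a * G0.b2 * G0.c2 * G0.a * G0.b3 * G0.c3) =
        (([G0.Gen.a, G0.Gen.b1, G0.Gen.c1, G0.Gen.a, G0.Gen.b2, G0.Gen.c2, G0.Gen.a, G0.Gen.b3,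
          G0.Gen.c3] : List G0.Gen).map FreeGroup.of).prod := by
      simp only [List.map_cons, List.map_nil, List.prod_cons, List.prod_nil, mul_one, mul_assoc]
    rw [e, map_pow, lift_prod, ← wv_rep]
    exact wv_eq _ [] (by decide +kernel) (by decide +kernel) (by decide +kernel)

/-- the homomorphism onto Fi23 -/
noncomputable def theta : G0 →* Fi23 := PresentedGroup.toGroup theta_rel

theorem theta_of (x : G0.Gen) : theta (PresentedGroup.of x) = wv (gl x) :=
  PresentedGroup.toGroup.of theta_rel

theorem theta_mk (w : FreeGroup G0.Gen) :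
    theta (PresentedGroup.mk (coxRelators G0.edges ∪ {r | r ∈ G0.extra}) w) =
      FreeGroup.lift (fun x => wv (gl x)) w := rfl

theorem theta_pow7 (x1 x2 x3 x4 x5 x6 x7 : G0.Gen) :
    theta (PresentedGroup.mk (coxRelators G0.edges ∪ {r | r ∈ G0.extra})
      ((FreeGroup.of x1 * FreeGroup.of x2 * FreeGroup.of x3 * FreeGroup.of x4 * FreeGroup.of x5 *
        FreeGroup.of x6 * FreeGroup.of x7) ^ 9)) = wv (rep 9 (glw [x1, x2, x3, x4, x5, x6, x7])) := by
  have e : (FreeGroup.of x1 * FreeGroup.of x2 * FreeGroup.of x3 * FreeGroup.of x4 * FreeGroup.of x5 *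
      FreeGroup.of x6 * FreeGroup.of x7) =
      (([x1, x2, x3, x4, x5, x6, x7] : List G0.Gen).map FreeGroup.of).prod := by
    simp only [List.map_cons, List.map_nil, List.prod_cons, List.prod_nil, mul_one, mul_assoc]
  rw [theta_mk, e, map_pow, lift_prod, ← wv_rep]

theorem theta_surj : Function.Surjective theta := by
  rw [← MonoidHom.range_eq_top, eq_top_iff, ← PresentedGroup.closure_range_of]
  apply (Subgroup.closure_le _).mpr
  rintro _ ⟨g, rfl⟩
  cases g
  · exact ⟨PresentedGroup.of G0.Gen.d2, (theta_of _).trans (wv_single 0 (by decide +kernel))⟩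
  · exact ⟨PresentedGroup.of G0.Gen.c2, (theta_of _).trans (wv_single 1 (by decide +kernel))⟩
  · exact ⟨PresentedGroup.of G0.Gen.b2, (theta_of _).trans (wv_single 2 (by decide +kernel))⟩
  · exact ⟨PresentedGroup.of G0.Gen.a, (theta_of _).trans (wv_single 3 (by decide +kernel))⟩
  · exact ⟨PresentedGroup.of G0.Gen.b1, (theta_of _).trans (wv_single 4 (by decide +kernel))⟩
  · exact ⟨PresentedGroup.of G0.Gen.c1, (theta_of _).trans (wv_single 5 (by decide +kernel))⟩
  · exact ⟨PresentedGroup.of G0.Gen.d1, (theta_of _).trans (wv_single 6 (by decide +kernel))⟩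
  · exact ⟨PresentedGroup.of G0.Gen.e1, (theta_of _).trans (wv_single 7 (by decide +kernel))⟩
  · exact ⟨PresentedGroup.of G0.Gen.b3, (theta_of _).trans (wv_single 8 (by decide +kernel))⟩
  · exact ⟨PresentedGroup.of G0.Gen.c3, (theta_of _).trans (wv_single 9 (by decide +kernel))⟩

theorem card_ker_le : Nat.card theta.ker ≤ 2 := by
  obtain ⟨hfin, hle⟩ := card_le
  have h1 := Subgroup.card_eq_card_quotient_mul_card_subgroup theta.ker
  have h2 : Nat.card (G0 ⧸ theta.ker) = Nat.card Fi23 :=
    Nat.card_congr (QuotientGroup.quotientKerEquivOfSurjective theta theta_surj).toEquiv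
  rw [h2, Cfsg.Agent.Helper28.F23.card_eq] at h1
  rw [h1] at hle
  have e : 1 * (31671 * (28160 * (728 * (243 * (27 * (16 * (120))))))) = 4089470473293004800 * 2 := by
    norm_num
  rw [e] at hle
  exact Nat.le_of_mul_le_mul_left hle (by norm_num)

/-! ### the sign -/

/-- the sign on generators -/
def sgnf : G0.Gen → Multiplicative (ZMod 2) := fun _ => Multiplicative.ofAdd 1

theorem two_sq : (Multiplicative.ofAdd (1 : ZMod 2)) * Multiplicative.ofAdd 1 = 1 := by
  decide

theorem sgn_rel : ∀ r ∈ coxRelators G0.edges ∪ {r | r ∈ G0.extra}, FreeGroup.lift sgnf r = 1 := by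
  intro r hr
  rcases hr with hr | hr
  · obtain ⟨x, _, y, _, rfl⟩ := hr
    rw [map_pow, map_mul, FreeGroup.lift_apply_of, FreeGroup.lift_apply_of]
    unfold sgnf
    rw [two_sq, one_pow]
  · have hr' : r ∈ G0.extra := hr
    simp only [G0.extra, List.mem_cons, List.not_mem_nil, or_false] at hr'
    subst hr'
    simp only [map_mul, map_pow, FreeGroup.lift_apply_of, sgnf]
    decide

/-- the sign -/
def sgn : G0 →* Multiplicative (ZMod 2) := PresentedGroup.toGroup sgn_rel

theorem sgn_of (x : G0.Gen) : sgn (PresentedGroup.of x) = Multiplicative.ofAdd 1 :=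
  PresentedGroup.toGroup.of sgn_rel

theorem sgn_pow7 (x1 x2 x3 x4 x5 x6 x7 : G0.Gen) :
    sgn (PresentedGroup.mk (coxRelators G0.edges ∪ {r | r ∈ G0.extra})
      ((FreeGroup.of x1 * FreeGroup.of x2 * FreeGroup.of x3 * FreeGroup.of x4 * FreeGroup.of x5 *
        FreeGroup.of x6 * FreeGroup.of x7) ^ 9)) = Multiplicative.ofAdd 1 := by
  have e : sgn (PresentedGroup.mk (coxRelators G0.edges ∪ {r | r ∈ G0.extra})
      ((FreeGroup.of x1 * FreeGroup.of x2 * FreeGroup.of x3 * FreeGroup.of x4 * FreeGroup.of x5 *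
        FreeGroup.of x6 * FreeGroup.of x7) ^ 9)) =
      FreeGroup.lift sgnf ((FreeGroup.of x1 * FreeGroup.of x2 * FreeGroup.of x3 * FreeGroup.of x4 *
        FreeGroup.of x5 * FreeGroup.of x6 * FreeGroup.of x7) ^ 9) := rfl
  rw [e]
  simp only [map_mul, map_pow, FreeGroup.lift_apply_of, sgnf]
  decide

/-! ### the kernel -/

/-- the ninth power of a Coxeter element of the sub-diagram `d2 c2 b2 a b1 c1 b3` of type E7 -/
noncomputable def zeta : G0 :=
  PresentedGroup.mk (coxRelators G0.edges ∪ {r | r ∈ G0.extra})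
    ((FreeGroup.of G0.Gen.d2 * FreeGroup.of G0.Gen.c2 * FreeGroup.of G0.Gen.b2 * FreeGroup.of G0.Gen.a *
      FreeGroup.of G0.Gen.b1 * FreeGroup.of G0.Gen.c1 * FreeGroup.of G0.Gen.b3) ^ 9)

theorem theta_zeta : theta zeta = 1 := by
  unfold zeta
  rw [theta_pow7]
  exact wv_eq _ [] (by decide +kernel) (by decide +kernel) (by decide +kernel)

theorem sgn_zeta : sgn zeta = Multiplicative.ofAdd 1 := sgn_pow7 _ _ _ _ _ _ _

theorem zeta_ne_one : zeta ≠ 1 := by
  intro h
  have h1 := sgn_zeta
  rw [h, map_one] at h1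
  exact absurd h1 (by decide)

/-- In a finite type with at most two members, two different members are all. -/
theorem two_cases {α : Type*} [Finite α] (h : Nat.card α ≤ 2) (a b : α) (hab : a ≠ b) (x : α) :
    x = a ∨ x = b := by
  classical
  by_contra hx
  push_neg at hx
  have : Fintype α := Fintype.ofFinite α
  have h3 : ({a, b, x} : Finset α).card = 3 := by
    rw [Finset.card_insert_of_notMem, Finset.card_insert_of_notMem, Finset.card_singleton]
    · rw [Finset.mem_singleton]
      exact fun e => hx.2 e.symm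
    · rw [Finset.mem_insert, Finset.mem_singleton]
      rintro (e | e)
      · exact hab e
      · exact hx.1 e.symm
  have h4 := Finset.card_le_univ ({a, b, x} : Finset α)
  rw [h3, ← Nat.card_eq_fintype_card] at h4
  omega

theorem ker_cases (k : G0) (hk : theta k = 1) : k = 1 ∨ k = zeta := by
  have hfin : Finite G0 := card_le.1
  have h := two_cases (α := theta.ker) card_ker_le ⟨1, theta.ker.one_mem⟩
    ⟨zeta, MonoidHom.mem_ker.mpr theta_zeta⟩
    (fun e => zeta_ne_one (congrArg Subtype.val e).symm) ⟨k, MonoidHom.mem_ker.mpr hk⟩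
  rcases h with h | h
  · exact Or.inl (congrArg Subtype.val h)
  · exact Or.inr (congrArg Subtype.val h)

/-- An element of `G0` with trivial image in Fi23 and trivial sign is trivial. -/
theorem eq_one_of_theta_sgn (z : G0) (h1 : theta z = 1) (h2 : sgn z = 1) : z = 1 := by
  rcases ker_cases z h1 with h | h
  · exact h
  · rw [h, sgn_zeta] at h2
    exact absurd h2 (by decide)

/-! ### the relations in `G0` -/

theorem rel_of (x1 x2 x3 x4 x5 x6 x7 : G0.Gen)
    (h : wv (gl G0.Gen.f1) = wv (rep 9 (glw [x1, x2, x3, x4, x5, x6, x7]))) :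
    (PresentedGroup.of G0.Gen.f1 : G0) =
      PresentedGroup.mk (coxRelators G0.edges ∪ {r | r ∈ G0.extra})
        ((FreeGroup.of x1 * FreeGroup.of x2 * FreeGroup.of x3 * FreeGroup.of x4 * FreeGroup.of x5 *
          FreeGroup.of x6 * FreeGroup.of x7) ^ 9) := by
  have hz : (PresentedGroup.of G0.Gen.f1 : G0) *
      (PresentedGroup.mk (coxRelators G0.edges ∪ {r | r ∈ G0.extra})
        ((FreeGroup.of x1 * FreeGroup.of x2 * FreeGroup.of x3 * FreeGroup.of x4 * FreeGroup.of x5 *
          FreeGroup.of x6 * FreeGroup.of x7) ^ 9))⁻¹ = 1 := by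
    apply eq_one_of_theta_sgn
    · rw [map_mul, map_inv, theta_of, theta_pow7, h, mul_inv_cancel]
    · rw [map_mul, map_inv, sgn_of, sgn_pow7, mul_inv_cancel]
  exact mul_inv_eq_one.mp hz

/-- `f1 = (a b1 b2 b3 c1 c2 d1)^9` in `G0` -/
theorem relA : (PresentedGroup.of G0.Gen.f1 : G0) =
    PresentedGroup.mk (coxRelators G0.edges ∪ {r | r ∈ G0.extra})
      ((FreeGroup.of G0.Gen.a * FreeGroup.of G0.Gen.b1 * FreeGroup.of G0.Gen.b2 * FreeGroup.of G0.Gen.b3 *
        FreeGroup.of G0.Gen.c1 * FreeGroup.of G0.Gen.c2 * FreeGroup.of G0.Gen.d1) ^ 9) :=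
  rel_of _ _ _ _ _ _ _ (wv_eq _ _ (by decide +kernel) (by decide +kernel) (by decide +kernel))

/-- `f1 = (a b1 b3 b2 c1 c3 d1)^9` in `G0` -/
theorem relB : (PresentedGroup.of G0.Gen.f1 : G0) =
    PresentedGroup.mk (coxRelators G0.edges ∪ {r | r ∈ G0.extra})
      ((FreeGroup.of G0.Gen.a * FreeGroup.of G0.Gen.b1 * FreeGroup.of G0.Gen.b3 * FreeGroup.of G0.Gen.b2 *
        FreeGroup.of G0.Gen.c1 * FreeGroup.of G0.Gen.c3 * FreeGroup.of G0.Gen.d1) ^ 9) :=
  rel_of _ _ _ _ _ _ _ (wv_eq _ _ (by decide +kernel) (by decide +kernel) (by decide +kernel))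

end Cfsg.Agent.Helper28.Y5
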