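import Cfsg.Agent.Helper28.Y5.Rel

/-!
# The relators of the Bimonster presentation follow from the spider relation (helper28)

The three inclusions of the diagram Y532 in Y555 carry the two relations `f1 = (E7 Coxeter element)^9`
of the group `G0` to the six relations for the end nodes of Y555.
-/

set_option autoImplicit false

namespace Cfsg.Agent.Helper28.Y5

open Cfsg.Spor

/-- the spider relator of the diagram Y555 -/
abbrev spider : FreeGroup Bimonster.Gen :=
  (Bimonster.a * Bimonster.b1 * Bimonster.c1 * Bimonster.a * Bimonster.b2 * Bimonster.c2 * Bimonster.a *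
    Bimonster.b3 * Bimonster.c3) ^ 10

/-- the group presented on the diagram Y555 with the spider relation alone -/
abbrev YS : Type := CoxPresented Bimonster.Gen Bimonster.edges [spider]

theorem bnode (x : Bimonster.Gen) : x ∈ coxNodes Bimonster.edges := by
  cases x <;> decide

/-- the long arm of Y532 goes to the first arm -/
def inc1 : G0.Gen → Bimonster.Gen
  | .a => .a
  | .b1 => .b1
  | .c1 => .c1
  | .d1 => .d1
  | .e1 => .e1
  | .f1 => .f1
  | .b2 => .b2
  | .c2 => .c2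
  | .d2 => .d2
  | .b3 => .b3
  | .c3 => .c3

/-- the long arm of Y532 goes to the second arm -/
def inc2 : G0.Gen → Bimonster.Gen
  | .a => .a
  | .b1 => .b2
  | .c1 => .c2
  | .d1 => .d2
  | .e1 => .e2
  | .f1 => .f2
  | .b2 => .b3
  | .c2 => .c3
  | .d2 => .d3
  | .b3 => .b1
  | .c3 => .c1

/-- the long arm of Y532 goes to the third arm -/
def inc3 : G0.Gen → Bimonster.Gen
  | .a => .a
  | .b1 => .b3
  | .c1 => .c3
  | .d1 => .d3
  | .e1 => .e3
  | .f1 => .f3
  | .b2 => .b1
  | .c2 => .c1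
  | .d2 => .d1
  | .b3 => .b2
  | .c3 => .c2

theorem pow_rot {G : Type*} [Group G] (x y : G) (n : ℕ) (h : (x * y) ^ n = 1) : (y * x) ^ n = 1 := by
  have e : ∀ m : ℕ, (y * x) ^ m = x⁻¹ * (x * y) ^ m * x := by
    intro m
    induction m with
    | zero => simp
    | succ m ih => rw [pow_succ, ih, pow_succ]; group
  rw [e, h]
  group

theorem spider_one : (PresentedGroup.mk (coxRelators Bimonster.edges ∪ {r | r ∈ [spider]}) spider) = 1 :=
  PresentedGroup.one_of_mem (Or.inr (List.mem_singleton.mpr rfl))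

theorem spider_rot2 : (PresentedGroup.mk (coxRelators Bimonster.edges ∪ {r | r ∈ [spider]})
    ((Bimonster.a * Bimonster.b2 * Bimonster.c2 * Bimonster.a * Bimonster.b3 * Bimonster.c3 * Bimonster.a *
      Bimonster.b1 * Bimonster.c1) ^ 10)) = 1 := by
  have h := spider_one
  have e1 : (Bimonster.a * Bimonster.b1 * Bimonster.c1 * Bimonster.a * Bimonster.b2 * Bimonster.c2 *
      Bimonster.a * Bimonster.b3 * Bimonster.c3) =
      (Bimonster.a * Bimonster.b1 * Bimonster.c1) *
        (Bimonster.a * Bimonster.b2 * Bimonster.c2 * Bimonster.a * Bimonster.b3 * Bimonster.c3) := by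
    simp only [mul_assoc]
  have e2 : (Bimonster.a * Bimonster.b2 * Bimonster.c2 * Bimonster.a * Bimonster.b3 * Bimonster.c3 *
      Bimonster.a * Bimonster.b1 * Bimonster.c1) =
      (Bimonster.a * Bimonster.b2 * Bimonster.c2 * Bimonster.a * Bimonster.b3 * Bimonster.c3) *
        (Bimonster.a * Bimonster.b1 * Bimonster.c1) := by
    simp only [mul_assoc]
  unfold spider at h
  rw [e1, map_pow, map_mul] at h
  rw [e2, map_pow, map_mul]
  exact pow_rot _ _ _ h

theorem spider_rot3 : (PresentedGroup.mk (coxRelators Bimonster.edges ∪ {r | r ∈ [spider]})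
    ((Bimonster.a * Bimonster.b3 * Bimonster.c3 * Bimonster.a * Bimonster.b1 * Bimonster.c1 * Bimonster.a *
      Bimonster.b2 * Bimonster.c2) ^ 10)) = 1 := by
  have h := spider_one
  have e1 : (Bimonster.a * Bimonster.b1 * Bimonster.c1 * Bimonster.a * Bimonster.b2 * Bimonster.c2 *
      Bimonster.a * Bimonster.b3 * Bimonster.c3) =
      (Bimonster.a * Bimonster.b1 * Bimonster.c1 * Bimonster.a * Bimonster.b2 * Bimonster.c2) *
        (Bimonster.a * Bimonster.b3 * Bimonster.c3) := by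
    simp only [mul_assoc]
  have e2 : (Bimonster.a * Bimonster.b3 * Bimonster.c3 * Bimonster.a * Bimonster.b1 * Bimonster.c1 *
      Bimonster.a * Bimonster.b2 * Bimonster.c2) =
      (Bimonster.a * Bimonster.b3 * Bimonster.c3) *
        (Bimonster.a * Bimonster.b1 * Bimonster.c1 * Bimonster.a * Bimonster.b2 * Bimonster.c2) := by
    simp only [mul_assoc]
  unfold spider at h
  rw [e1, map_pow, map_mul] at h
  rw [e2, map_pow, map_mul]
  exact pow_rot _ _ _ h

/-- the relators of `G0` hold in Y555 with the spider relation, for an inclusion of the diagrams -/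
theorem eta_rel (inc : G0.Gen → Bimonster.Gen)
    (hlab : ∀ x y, coxLabel G0.edges x y = coxLabel Bimonster.edges (inc x) (inc y))
    (hsp : (PresentedGroup.mk (coxRelators Bimonster.edges ∪ {r | r ∈ [spider]})
      (FreeGroup.map inc ((G0.a * G0.b1 * G0.c1 * G0.a * G0.b2 * G0.c2 * G0.a * G0.b3 * G0.c3) ^ 10))) = 1) :
    ∀ r ∈ coxRelators G0.edges ∪ {r | r ∈ G0.extra},
      FreeGroup.lift (fun y => (PresentedGroup.of (inc y) : YS)) r = 1 := by
  intro r hr
  rcases hr with ⟨x, _, y, _, rfl⟩ | hr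
  · rw [map_pow, map_mul, FreeGroup.lift_apply_of, FreeGroup.lift_apply_of, hlab]
    exact Cfsg.Agent.Helper28.cox_pair Bimonster.edges [spider] _ _ (bnode _) (bnode _)
  · have hr' : r ∈ G0.extra := hr
    simp only [G0.extra, List.mem_cons, List.not_mem_nil, or_false] at hr'
    subst hr'
    rw [Cfsg.Agent.Helper28.lift_of_comp]
    exact hsp

theorem eta_rel1 : ∀ r ∈ coxRelators G0.edges ∪ {r | r ∈ G0.extra},
    FreeGroup.lift (fun y => (PresentedGroup.of (inc1 y) : YS)) r = 1 :=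
  eta_rel inc1 (by intro x y; cases x <;> cases y <;> decide) (by
    have e : FreeGroup.map inc1 ((G0.a * G0.b1 * G0.c1 * G0.a * G0.b2 * G0.c2 * G0.a * G0.b3 * G0.c3) ^ 10) =
        spider := by
      simp only [map_pow, map_mul, FreeGroup.map.of, inc1]
    rw [e]
    exact spider_one)

theorem eta_rel2 : ∀ r ∈ coxRelators G0.edges ∪ {r | r ∈ G0.extra},
    FreeGroup.lift (fun y => (PresentedGroup.of (inc2 y) : YS)) r = 1 :=
  eta_rel inc2 (by intro x y; cases x <;> cases y <;> decide) (by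
    have e : FreeGroup.map inc2 ((G0.a * G0.b1 * G0.c1 * G0.a * G0.b2 * G0.c2 * G0.a * G0.b3 * G0.c3) ^ 10) =
        (Bimonster.a * Bimonster.b2 * Bimonster.c2 * Bimonster.a * Bimonster.b3 * Bimonster.c3 * Bimonster.a *
          Bimonster.b1 * Bimonster.c1) ^ 10 := by
      simp only [map_pow, map_mul, FreeGroup.map.of, inc2]
    rw [e]
    exact spider_rot2)

theorem eta_rel3 : ∀ r ∈ coxRelators G0.edges ∪ {r | r ∈ G0.extra},
    FreeGroup.lift (fun y => (PresentedGroup.of (inc3 y) : YS)) r = 1 :=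
  eta_rel inc3 (by intro x y; cases x <;> cases y <;> decide) (by
    have e : FreeGroup.map inc3 ((G0.a * G0.b1 * G0.c1 * G0.a * G0.b2 * G0.c2 * G0.a * G0.b3 * G0.c3) ^ 10) =
        (Bimonster.a * Bimonster.b3 * Bimonster.c3 * Bimonster.a * Bimonster.b1 * Bimonster.c1 * Bimonster.a *
          Bimonster.b2 * Bimonster.c2) ^ 10 := by
      simp only [map_pow, map_mul, FreeGroup.map.of, inc3]
    rw [e]
    exact spider_rot3)

/-- a relation `f1 = (x1 ⋯ x7)^9` of `G0` carried to Y555 -/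
theorem rel_transfer (inc : G0.Gen → Bimonster.Gen)
    (hrel : ∀ r ∈ coxRelators G0.edges ∪ {r | r ∈ G0.extra},
      FreeGroup.lift (fun y => (PresentedGroup.of (inc y) : YS)) r = 1)
    (x1 x2 x3 x4 x5 x6 x7 : G0.Gen)
    (h : (PresentedGroup.of G0.Gen.f1 : G0) =
      PresentedGroup.mk (coxRelators G0.edges ∪ {r | r ∈ G0.extra})
        ((FreeGroup.of x1 * FreeGroup.of x2 * FreeGroup.of x3 * FreeGroup.of x4 * FreeGroup.of x5 *
          FreeGroup.of x6 * FreeGroup.of x7) ^ 9)) :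
    (PresentedGroup.mk (coxRelators Bimonster.edges ∪ {r | r ∈ [spider]})
      (FreeGroup.of (inc G0.Gen.f1) *
        ((FreeGroup.of (inc x1) * FreeGroup.of (inc x2) * FreeGroup.of (inc x3) * FreeGroup.of (inc x4) *
          FreeGroup.of (inc x5) * FreeGroup.of (inc x6) * FreeGroup.of (inc x7)) ^ 9)⁻¹)) = 1 := by
  have h2 := congrArg (PresentedGroup.toGroup hrel) h
  rw [PresentedGroup.toGroup.of] at h2
  have e : (PresentedGroup.toGroup hrel) (PresentedGroup.mk (coxRelators G0.edges ∪ {r | r ∈ G0.extra})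
      ((FreeGroup.of x1 * FreeGroup.of x2 * FreeGroup.of x3 * FreeGroup.of x4 * FreeGroup.of x5 *
        FreeGroup.of x6 * FreeGroup.of x7) ^ 9)) =
      FreeGroup.lift (fun y => (PresentedGroup.of (inc y) : YS))
        ((FreeGroup.of x1 * FreeGroup.of x2 * FreeGroup.of x3 * FreeGroup.of x4 * FreeGroup.of x5 *
          FreeGroup.of x6 * FreeGroup.of x7) ^ 9) := rfl
  rw [e, Cfsg.Agent.Helper28.lift_of_comp] at h2
  have e2 : FreeGroup.map inc ((FreeGroup.of x1 * FreeGroup.of x2 * FreeGroup.of x3 * FreeGroup.of x4 *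
      FreeGroup.of x5 * FreeGroup.of x6 * FreeGroup.of x7) ^ 9) =
      (FreeGroup.of (inc x1) * FreeGroup.of (inc x2) * FreeGroup.of (inc x3) * FreeGroup.of (inc x4) *
        FreeGroup.of (inc x5) * FreeGroup.of (inc x6) * FreeGroup.of (inc x7)) ^ 9 := by
    simp only [map_pow, map_mul, FreeGroup.map.of]
  rw [e2] at h2
  rw [map_mul, map_inv, mul_inv_eq_one]
  exact h2

theorem ext1 : (PresentedGroup.mk (coxRelators Bimonster.edges ∪ {r | r ∈ [spider]})
    (Bimonster.f1 * ((Bimonster.a * Bimonster.b1 * Bimonster.b2 * Bimonster.b3 * Bimonster.c1 * Bimonster.c2 * Bimonster.d1) ^ 9)⁻¹)) = 1 :=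
  rel_transfer inc1 eta_rel1 G0.Gen.a G0.Gen.b1 G0.Gen.b2 G0.Gen.b3 G0.Gen.c1 G0.Gen.c2 G0.Gen.d1 relA

theorem ext2 : (PresentedGroup.mk (coxRelators Bimonster.edges ∪ {r | r ∈ [spider]})
    (Bimonster.f1 * ((Bimonster.a * Bimonster.b1 * Bimonster.b3 * Bimonster.b2 * Bimonster.c1 * Bimonster.c3 * Bimonster.d1) ^ 9)⁻¹)) = 1 :=
  rel_transfer inc1 eta_rel1 G0.Gen.a G0.Gen.b1 G0.Gen.b3 G0.Gen.b2 G0.Gen.c1 G0.Gen.c3 G0.Gen.d1 relB

theorem ext3 : (PresentedGroup.mk (coxRelators Bimonster.edges ∪ {r | r ∈ [spider]})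
    (Bimonster.f2 * ((Bimonster.a * Bimonster.b2 * Bimonster.b1 * Bimonster.b3 * Bimonster.c2 * Bimonster.c1 * Bimonster.d2) ^ 9)⁻¹)) = 1 :=
  rel_transfer inc2 eta_rel2 G0.Gen.a G0.Gen.b1 G0.Gen.b3 G0.Gen.b2 G0.Gen.c1 G0.Gen.c3 G0.Gen.d1 relB

theorem ext4 : (PresentedGroup.mk (coxRelators Bimonster.edges ∪ {r | r ∈ [spider]})
    (Bimonster.f2 * ((Bimonster.a * Bimonster.b2 * Bimonster.b3 * Bimonster.b1 * Bimonster.c2 * Bimonster.c3 * Bimonster.d2) ^ 9)⁻¹)) = 1 :=
  rel_transfer inc2 eta_rel2 G0.Gen.a G0.Gen.b1 G0.Gen.b2 G0.Gen.b3 G0.Gen.c1 G0.Gen.c2 G0.Gen.d1 relA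

theorem ext5 : (PresentedGroup.mk (coxRelators Bimonster.edges ∪ {r | r ∈ [spider]})
    (Bimonster.f3 * ((Bimonster.a * Bimonster.b3 * Bimonster.b1 * Bimonster.b2 * Bimonster.c3 * Bimonster.c1 * Bimonster.d3) ^ 9)⁻¹)) = 1 :=
  rel_transfer inc3 eta_rel3 G0.Gen.a G0.Gen.b1 G0.Gen.b2 G0.Gen.b3 G0.Gen.c1 G0.Gen.c2 G0.Gen.d1 relA

theorem ext6 : (PresentedGroup.mk (coxRelators Bimonster.edges ∪ {r | r ∈ [spider]})
    (Bimonster.f3 * ((Bimonster.a * Bimonster.b3 * Bimonster.b2 * Bimonster.b1 * Bimonster.c3 * Bimonster.c2 * Bimonster.d3) ^ 9)⁻¹)) = 1 :=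
  rel_transfer inc3 eta_rel3 G0.Gen.a G0.Gen.b1 G0.Gen.b3 G0.Gen.b2 G0.Gen.c1 G0.Gen.c3 G0.Gen.d1 relB

/-- All relators of the Bimonster presentation hold in the group presented on Y555 with the spider
relation alone. -/
theorem extra_one : ∀ r ∈ Bimonster.extra,
    (PresentedGroup.mk (coxRelators Bimonster.edges ∪ {r' | r' ∈ [spider]}) r) = 1 := by
  intro r hr
  simp only [Bimonster.extra, List.mem_cons, List.not_mem_nil, or_false] at hr
  rcases hr with rfl | rfl | rfl | rfl | rfl | rfl | rfl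
  · exact spider_one
  · exact ext1
  · exact ext2
  · exact ext3
  · exact ext4
  · exact ext5
  · exact ext6

end Cfsg.Agent.Helper28.Y5
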